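import Cfsg.Agent.MaxSub.SingerSU5.Chars

/-!
# The degree arithmetic for Singer overgroups in the unitary groups of dimension five

With `m * d = q⁴ - q³ + q² - q + 1` and `N` the order of an overgroup of index `Z ≡ 1 (mod m)`,
no system of degrees as in `DegreeSystem` exists.  A degree prime to `p` is a divisor
`x ≡ c (mod m)`, `|c| ≤ 5`, of `R = (q+1)⁴ (q-1)² (q²+1) (q²-q+1) ≡ 5 (mod m)`; writing both `x` and
its cofactor in terms of `m` leaves a quadratic whose discriminant is no square for `5 ≤ q`.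
-/

set_option autoImplicit false

namespace Cfsg.Agent.MaxSub.SingerSU5

namespace Arith

/-- `Φ₁₀`. -/
def P (q : ℤ) : ℤ := q ^ 4 - q ^ 3 + q ^ 2 - q + 1

/-- The cofactor. -/
def R (q : ℤ) : ℤ := (q + 1) ^ 4 * (q - 1) ^ 2 * (q ^ 2 + 1) * (q ^ 2 - q + 1)

theorem R_eq (q : ℤ) :
    R q = 5 + P q ^ 2 * (q + 1) * (q + 2) - P q * (q ^ 3 + 4 * q + 6) := by
  unfold R P; ring

theorem P_ge {q : ℤ} (hq : 4 ≤ q) : 205 ≤ P q ∧ 25 * q < P q := by
  have h2 : 4 * q ≤ q ^ 2 := by nlinarith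
  have h3 : 4 * q ^ 2 ≤ q ^ 3 := by nlinarith
  have h4 : 4 * q ^ 3 ≤ q ^ 4 := by nlinarith
  unfold P; constructor <;> nlinarith

theorem two_R_ge {q : ℤ} (hq : 2 ≤ q) : q ^ 10 ≤ 2 * R q := by
  have h1 : q ^ 3 ≤ (q + 1) ^ 2 * (q - 1) := by nlinarith
  have h0 : 0 ≤ q ^ 3 := by positivity
  have h2 : (q ^ 3) ^ 2 ≤ ((q + 1) ^ 2 * (q - 1)) ^ 2 := pow_le_pow_left₀ h0 h1 2
  have h3 : q ^ 2 ≤ q ^ 2 + 1 := by omega
  have h4 : q ^ 2 ≤ 2 * (q ^ 2 - q + 1) := by nlinarith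
  calc q ^ 10 = (q ^ 3) ^ 2 * q ^ 2 * q ^ 2 := by ring
    _ ≤ ((q + 1) ^ 2 * (q - 1)) ^ 2 * (q ^ 2 + 1) * (2 * (q ^ 2 - q + 1)) := by
        apply mul_le_mul (mul_le_mul h2 h3 (by positivity) (by positivity)) h4 (by positivity)
        positivity
    _ = 2 * R q := by unfold R; ring

/-- A certificate that an integer is no square. -/
def NonSq (D : ℤ) : Prop :=
  D < 0 ∨ ∃ p ∈ [3, 7, 8, 11, 13, 16, 17, 19, 23, 29, 31, 37, 41, 43],
    ∀ t < p, t * t % p ≠ D.natAbs % p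

instance (D : ℤ) : Decidable (NonSq D) := by unfold NonSq; infer_instance

theorem NonSq.ne_sq {D : ℤ} (h : NonSq D) (r : ℤ) : r ^ 2 ≠ D := by
  rintro rfl
  rcases h with h | ⟨p, hp, h⟩
  · exact absurd (sq_nonneg r) (not_le.mpr h)
  · have hp0 : 0 < p := by
      rcases p with _ | p
      · simp at hp
      · exact Nat.succ_pos p
    refine h (r.natAbs % p) (Nat.mod_lt _ hp0) ?_
    rw [Int.natAbs_pow, sq, ← Nat.mul_mod]

/-- The value of `j c' + i c` when `i j = A + K d² (q+1)(q+2)`. -/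
def Sv (q d m K A : ℤ) : ℤ := -(K * d * (q ^ 3 + 4 * q + 6)) - A * m

/-- The value of `i j`. -/
def Pv (q d K A : ℤ) : ℤ := A + K * d ^ 2 * (q + 1) * (q + 2)

/-- What the finite searches test. -/
def Cand (q d m K A : ℤ) : Prop :=
  (Sv q d m K A).natAbs ≤ 5 * (Pv q d K A + 1) →
    NonSq (Sv q d m K A ^ 2 - 20 * K * Pv q d K A)

instance (q d m K A : ℤ) : Decidable (Cand q d m K A) := by unfold Cand; infer_instance

/-- The bound on `|A| (m - 5)`. -/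
def Bd (q d K : ℤ) : ℤ :=
  K * d * (q ^ 3 + 4 * q + 6) + 5 * (K * d ^ 2 * (q + 1) * (q + 2)) + 5

/-- `d` as a function of `q`. -/
def dv (q : ℕ) : ℤ := if q % 5 = 4 then 5 else 1

theorem table_bd : ∀ q < 70, 5 ≤ q → ∀ K ∈ [(1 : ℤ), 2],
    Bd (q : ℕ) (dv q) K < 32 * (P (q : ℕ) / dv q - 5) := by
  decide +kernel

theorem table : ∀ q < 70, 5 ≤ q → ∀ K ∈ [(1 : ℤ), 2], ∀ k < 63,
    Cand (q : ℕ) (dv q) (P (q : ℕ) / dv q) K ((k : ℕ) - 31) := by
  decide +kernel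

theorem table4 : ∀ K ∈ [(1 : ℤ), 2], ∀ k < 481,
    Cand 4 5 41 K ((k : ℕ) - 240) ∨
      (K = 2 ∧ (((k : ℕ) : ℤ) - 240 = -45 ∨ ((k : ℕ) : ℤ) - 240 = -15 ∨
        ((k : ℕ) : ℤ) - 240 = 55)) := by
  decide +kernel

theorem no_large {q d m K A : ℤ} (hq : 70 ≤ q) (hd : d = 1 ∨ d = 5) (hm : d * m = P q)
    (hK : K = 1 ∨ K = 2) (hA : |A| * (m - 5) ≤ Bd q d K)
    (hS : |Sv q d m K A| ≤ 5 * (Pv q d K A + 1)) : False := by
  have h2 : 70 * q ≤ q ^ 2 := by nlinarith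
  have h3 : 70 * q ^ 2 ≤ q ^ 3 := by nlinarith
  have h4 : 70 * q ^ 3 ≤ q ^ 4 := by nlinarith
  have hB : Bd q d K < m - 5 := by
    unfold P at hm
    unfold Bd
    rcases hd with rfl | rfl <;> rcases hK with rfl | rfl <;> nlinarith
  have hA0 : A = 0 := by
    by_contra h
    have h1 : (1 : ℤ) ≤ |A| := Int.one_le_abs h
    have h0 : (0 : ℤ) ≤ m - 5 := by
      have : 0 ≤ Bd q d K := (mul_nonneg_iff_of_pos_right (by
        rcases hd with rfl | rfl <;> unfold P at hm <;> nlinarith)).mpr (abs_nonneg A) |>.trans hA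
      omega
    nlinarith
  subst hA0
  have hle : -Sv q d m K 0 ≤ 5 * (Pv q d K 0 + 1) := (neg_le_abs _).trans hS
  unfold Sv Pv at hle
  rcases hd with rfl | rfl <;> rcases hK with rfl | rfl <;> nlinarith

/-- A factorisation `K R = (j m + c) (i m + c')` with `i`, `j` positive. -/
theorem key {q : ℕ} {m K c c' i j : ℤ} (hq : 4 ≤ q) (hm : dv q * m = P q)
    (hK : K = 1 ∨ K = 2) (hcc : c * c' = 5 * K) (hc : |c| ≤ 5) (hc' : |c'| ≤ 5)
    (hi : 1 ≤ i) (hj : 1 ≤ j) (hprod : (j * m + c) * (i * m + c') = K * R q) :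
    q = 4 ∧ K = 2 ∧ ∃ A : ℤ, (A = -45 ∨ A = -15 ∨ A = 55) ∧
      j * c' + i * c = Sv q (dv q) m K A ∧
      (j * c' - i * c) ^ 2 = Sv q (dv q) m K A ^ 2 - 20 * K * Pv q (dv q) K A := by
  have hd : dv q = 1 ∨ dv q = 5 := by unfold dv; split_ifs <;> simp
  have hdiv : P q / dv q = m := by
    rw [← hm]; exact Int.mul_ediv_cancel_left m (by rcases hd with h | h <;> omega)
  have hm41 : 41 ≤ m := by
    have := (P_ge (q := (q : ℤ)) (by omega)).1
    rcases hd with h | h <;> rw [h] at hm <;> omega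
  obtain ⟨A, hAdef⟩ : ∃ A : ℤ, A = i * j - K * dv q ^ 2 * ((q : ℤ) + 1) * ((q : ℤ) + 2) := ⟨_, rfl⟩
  have hPv : i * j = Pv q (dv q) K A := by rw [hAdef, Pv]; ring
  have hSv : j * c' + i * c = Sv q (dv q) m K A := by
    have h : m * (i * j * m + (j * c' + i * c)) =
        m * (K * dv q ^ 2 * m * ((q : ℤ) + 1) * ((q : ℤ) + 2)
          - K * dv q * ((q : ℤ) ^ 3 + 4 * q + 6)) := by
      rw [R_eq, ← hm] at hprod
      linear_combination hprod - hcc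
    have h' := mul_left_cancel₀ (by omega : m ≠ 0) h
    rw [hAdef, Sv]
    linear_combination h'
  have habs : |Sv q (dv q) m K A| ≤ 5 * (Pv q (dv q) K A + 1) := by
    rw [← hSv, ← hPv]
    have h1 : |j * c' + i * c| ≤ j * 5 + i * 5 :=
      (abs_add_le _ _).trans (by
        rw [abs_mul, abs_mul, abs_of_nonneg (by omega : 0 ≤ j), abs_of_nonneg (by omega : 0 ≤ i)]
        exact add_le_add (mul_le_mul_of_nonneg_left hc' (by omega))
          (mul_le_mul_of_nonneg_left hc (by omega)))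
    nlinarith [mul_nonneg (by omega : 0 ≤ i - 1) (by omega : 0 ≤ j - 1)]
  have hsq : (j * c' - i * c) ^ 2 = Sv q (dv q) m K A ^ 2 - 20 * K * Pv q (dv q) K A := by
    rw [← hSv, ← hPv]
    linear_combination (-4 * i * j) * hcc
  have hbd : |A| * (m - 5) ≤ Bd q (dv q) K := by
    have h1 := abs_le.mp habs
    unfold Sv Pv at h1
    unfold Bd
    have hQ : 0 ≤ K * dv q * ((q : ℤ) ^ 3 + 4 * q + 6) := by
      rcases hd with h | h <;> rcases hK with h' | h' <;> rw [h, h'] <;> positivity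
    have hM : 0 ≤ K * dv q ^ 2 * ((q : ℤ) + 1) * ((q : ℤ) + 2) := by
      rcases hK with h' | h' <;> rw [h'] <;> positivity
    rcases le_total 0 A with h | h
    · rw [abs_of_nonneg h]; linarith [h1.1]
    · rw [abs_of_nonpos h]; linarith [h1.2]
  have hnat : ((Sv q (dv q) m K A).natAbs : ℤ) ≤ 5 * (Pv q (dv q) K A + 1) := by
    rwa [← Int.abs_eq_natAbs]
  have hKmem : K ∈ [(1 : ℤ), 2] := by simpa using hK
  rcases eq_or_ne q 4 with rfl | hq4
  · have hm' : m = 41 := by norm_num [dv, P] at hm; omega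
    subst hm'
    have hB : Bd (4 : ℕ) (dv 4) K ≤ 8365 := by
      rcases hK with rfl | rfl <;> norm_num [Bd, dv]
    have hA : |A| ≤ 240 := by omega
    rw [abs_le] at hA
    have h := table4 K hKmem (A + 240).toNat (by omega)
    rw [Int.toNat_of_nonneg (by omega), add_sub_cancel_right] at h
    rcases h with h | ⟨hK2, hA'⟩
    · exact absurd hsq ((h hnat).ne_sq _)
    · exact ⟨rfl, hK2, A, hA', hSv, hsq⟩
  · exfalso
    rcases lt_or_ge q 70 with hlt | hge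
    · have hb := table_bd q hlt (by omega) K hKmem
      rw [hdiv] at hb
      have hA : |A| < 32 := lt_of_mul_lt_mul_right (hbd.trans_lt hb) (by omega)
      rw [abs_lt] at hA
      have h := table q hlt (by omega) K hKmem (A + 31).toNat (by omega)
      rw [Int.toNat_of_nonneg (by omega), add_sub_cancel_right, hdiv] at h
      exact (h hnat).ne_sq _ hsq
    · exact no_large (by omega) hd hm hK hbd habs

theorem z_table : ∀ q < 55, 4 ≤ q → ∀ j < 50, 1 ≤ j →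
    ¬ (1 + j * ((P (q : ℕ) / dv q).toNat)) ∣ 5 * q ^ 10 := by
  decide +kernel

/-- The cases `x = R` and `x = R / 5`: no index `Z ≡ 1 (mod m)` fits. -/
theorem no_cofactor {p f q m x N Z : ℕ} (hp : p.Prime) (hq : q = p ^ f) (hq4 : 4 ≤ q)
    (hm : dv q * m = P q) (hZ1 : 1 < Z) (hZm : Z % m = 1) (hmN : m ∣ N) (hxN : x ∣ N)
    (hcop : x.Coprime m) {r : ℕ} (hr : (r : ℤ) = R q) (hNZ : N * Z = q ^ 10 * r * m)
    (hrx : r ∣ 5 * x) (hx0 : 0 < x) (hsq : x ^ 2 ≤ N) : False := by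
  have hd : dv q = 1 ∨ dv q = 5 := by unfold dv; split_ifs <;> simp
  have hP := P_ge (q := (q : ℤ)) (by omega)
  have hm5 : 5 * q < m := by
    have : (5 : ℤ) * q < m := by
      rcases hd with h | h <;> rw [h] at hm <;> omega
    exact_mod_cast this
  have hR : q ^ 10 ≤ 2 * r := by
    have := two_R_ge (q := (q : ℤ)) (by omega)
    rw [← hr] at this
    exact_mod_cast this
  have hle : r ≤ 5 * x := Nat.le_of_dvd (by omega) hrx
  have hr0 : 0 < r := by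
    have : 0 < q ^ 10 := pow_pos (by omega) 10
    omega
  -- `Z ≤ 50 m`
  have hZ50 : Z ≤ 50 * m := by
    have h1 : r ^ 2 * Z ≤ 25 * (q ^ 10 * r * m) := by
      calc r ^ 2 * Z ≤ (5 * x) ^ 2 * Z := by gcongr
        _ = 25 * (x ^ 2 * Z) := by ring
        _ ≤ 25 * (N * Z) := by gcongr
        _ = _ := by rw [hNZ]
    have h2 : (r * r) * Z ≤ (r * r) * (50 * m) := by
      calc (r * r) * Z = r ^ 2 * Z := by ring
        _ ≤ 25 * (q ^ 10 * r * m) := h1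
        _ ≤ 25 * ((2 * r) * r * m) := by gcongr
        _ = (r * r) * (50 * m) := by ring
    exact Nat.le_of_mul_le_mul_left h2 (Nat.mul_pos hr0 hr0)
  -- `Z ∣ 5 q ^ 10`
  have hdvd : Z ∣ 5 * q ^ 10 := by
    have h1 : x * m * Z ∣ N * Z :=
      mul_dvd_mul_right (hcop.mul_dvd_of_dvd_of_dvd hxN hmN) Z
    rw [hNZ] at h1
    have h2 : x * Z ∣ q ^ 10 * r := by
      apply Nat.dvd_of_mul_dvd_mul_left (show 0 < m by omega)
      convert h1 using 1 <;> ring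
    have h3 : x * Z ∣ x * (5 * q ^ 10) := by
      refine h2.trans ?_
      rw [show x * (5 * q ^ 10) = q ^ 10 * (5 * x) by ring]
      exact mul_dvd_mul_left _ hrx
    exact Nat.dvd_of_mul_dvd_mul_left hx0 h3
  have hj := Nat.div_add_mod Z m
  rw [hZm] at hj
  have hj1 : 1 ≤ Z / m := by
    rcases Nat.eq_zero_or_pos (Z / m) with h | h
    · rw [h, mul_zero] at hj; omega
    · exact h
  have hj50 : Z / m < 50 := by
    by_contra h
    have := Nat.mul_le_mul_left m (not_lt.mp h)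
    omega
  -- `q ∣ Z`
  have hqZ : q ∣ Z := by
    obtain ⟨k, -, hk⟩ := (Nat.dvd_prime_pow hp).mp
      (show Nat.gcd Z (q ^ 10) ∣ p ^ (f * 10) by rw [pow_mul, ← hq]; exact Nat.gcd_dvd_right _ _)
    have h5 : Z ∣ 5 * Nat.gcd Z (q ^ 10) := by
      rw [← Nat.gcd_mul_left]
      exact Nat.dvd_gcd (dvd_mul_left Z 5) hdvd
    have hgt : q < p ^ k := by
      have := Nat.le_of_dvd (Nat.mul_pos (by norm_num)
        (Nat.gcd_pos_of_pos_left _ (by omega))) h5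
      have h3 : m * 1 ≤ m * (Z / m) := Nat.mul_le_mul_left m hj1
      rw [hk] at this
      omega
    rw [hq] at hgt
    have hfk := (Nat.pow_lt_pow_iff_right hp.one_lt).mp hgt
    refine (show q ∣ Nat.gcd Z (q ^ 10) from ?_).trans (Nat.gcd_dvd_left _ _)
    rw [hk, hq]
    exact pow_dvd_pow p hfk.le
  -- hence `q` is small
  have hq54 : q < 55 := by
    have h : (q : ℤ) ∣ dv q + ((Z / m : ℕ) : ℤ) := by
      have h1 : (q : ℤ) ∣ dv q * Z := dvd_mul_of_dvd_right (Int.natCast_dvd_natCast.mpr hqZ) _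
      have h2 : (Z : ℤ) = m * ((Z / m : ℕ) : ℤ) + 1 := by exact_mod_cast hj.symm
      have h3 : dv q * Z = dv q + P q * ((Z / m : ℕ) : ℤ) := by
        rw [h2]; linear_combination ((Z / m : ℕ) : ℤ) * hm
      have h4 : (q : ℤ) ∣ (P q - 1) * ((Z / m : ℕ) : ℤ) :=
        Dvd.dvd.mul_right ⟨(q : ℤ) ^ 3 - q ^ 2 + q - 1, by unfold P; ring⟩ _
      rw [h3] at h1
      have h5 := dvd_sub h1 h4
      rwa [show dv q + P q * ((Z / m : ℕ) : ℤ) - (P q - 1) * ((Z / m : ℕ) : ℤ)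
        = dv q + ((Z / m : ℕ) : ℤ) by ring] at h5
    have := Int.le_of_dvd (by rcases hd with h' | h' <;> omega) h
    rcases hd with h' | h' <;> omega
  have hmval : (P q / dv q).toNat = m := by
    rw [← hm, Int.mul_ediv_cancel_left _ (by rcases hd with h | h <;> omega), Int.toNat_natCast]
  apply z_table q hq54 hq4 (Z / m) hj50 hj1
  rw [hmval, mul_comm, add_comm, hj]
  exact hdvd

/-- The integer forms of the hypotheses. -/
theorem setup {q d m : ℕ} (hq3 : 3 ≤ q) (hd : d = Nat.gcd 5 (q + 1))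
    (hm : m * d = q ^ 4 - q ^ 3 + q ^ 2 - q + 1) :
    (d : ℤ) = dv q ∧ dv q * m = P q ∧ ∃ r : ℕ, (r : ℤ) = R q ∧
      r = (q + 1) ^ 4 * (q - 1) ^ 2 * (q ^ 2 + 1) * (q ^ 2 - q + 1) := by
  have hdv : (d : ℤ) = dv q := by
    unfold dv
    split_ifs with h
    · rw [hd, Nat.gcd_eq_left (by omega)]; rfl
    · rw [hd, Nat.Coprime.gcd_eq_one ((Nat.Prime.coprime_iff_not_dvd (by norm_num)).mpr (by omega))]
      rfl
  have h43 : q ^ 3 ≤ q ^ 4 := Nat.pow_le_pow_right (by omega) (by norm_num)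
  have h21 : q ≤ q ^ 2 := Nat.le_self_pow (by norm_num) q
  have hmz : m * d + q ^ 3 + q = q ^ 4 + q ^ 2 + 1 := by omega
  refine ⟨hdv, ?_, _, ?_, rfl⟩
  · rw [← hdv]
    have : (m : ℤ) * d + q ^ 3 + q = q ^ 4 + q ^ 2 + 1 := by exact_mod_cast hmz
    unfold P; linarith
  · unfold R
    push_cast [Nat.cast_sub h21, Nat.cast_sub (show 1 ≤ q by omega)]
    rfl

theorem coprime_m {q m c : ℕ} (_hq4 : 4 ≤ q) (hm : dv q * m = P q) (hc : c = 1 ∨ c = 2 ∨ c = 5) :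
    Nat.Coprime c m := by
  rcases hc with rfl | rfl | rfl
  · exact Nat.coprime_one_left m
  all_goals rw [Nat.Prime.coprime_iff_not_dvd (by norm_num)]
  all_goals rintro ⟨k, rfl⟩
  · have hpar : Even (P q - 1) := by
      unfold P
      simp [parity_simps]
    obtain ⟨t, ht⟩ := hpar
    push_cast at hm
    have h3 : dv q = 1 ∨ dv q = 5 := by unfold dv; split_ifs <;> simp
    rcases h3 with h3 | h3 <;> rw [h3] at hm <;> omega
  · have key : ∀ s < 25, (((s : ℕ) : ℤ) % 5 = 4 → P (s : ℕ) % 25 = 5) ∧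
        (((s : ℕ) : ℤ) % 5 ≠ 4 → P (s : ℕ) % 5 ≠ 0) := by decide +kernel
    obtain ⟨h1, h2⟩ := key (q % 25) (Nat.mod_lt _ (by norm_num))
    obtain ⟨w, hw⟩ : (25 : ℤ) ∣ P q - P ((q % 25 : ℕ) : ℤ) := by
      have hq' : (25 : ℤ) ∣ (q : ℤ) - ((q % 25 : ℕ) : ℤ) := by omega
      have h' : ((q : ℤ) - ((q % 25 : ℕ) : ℤ)) ∣ P q - P ((q % 25 : ℕ) : ℤ) :=
        ⟨((q : ℤ) + (q % 25 : ℕ)) * ((q : ℤ) ^ 2 + ((q % 25 : ℕ) : ℤ) ^ 2)
            - ((q : ℤ) ^ 2 + q * (q % 25 : ℕ) + ((q % 25 : ℕ) : ℤ) ^ 2)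
            + ((q : ℤ) + (q % 25 : ℕ)) - 1, by unfold P; ring⟩
      exact hq'.trans h'
    push_cast at hm
    unfold dv at hm
    split_ifs at hm with hq5
    · have := h1 (by omega)
      omega
    · have := h2 (by omega)
      omega

/-- The orders of overgroups for `q = 3`. -/
theorem z_list : ∀ a : Fin 11, ∀ b : Fin 12, ∀ c : Fin 2,
    (3 ^ (a : ℕ) * (2 ^ (b : ℕ) * 7 ^ (c : ℕ)) % 61 = 1 ∧
      1 < 3 ^ (a : ℕ) * (2 ^ (b : ℕ) * 7 ^ (c : ℕ)) ∧
      3 ^ (a : ℕ) * (2 ^ (b : ℕ) * 7 ^ (c : ℕ)) * 3136 ≤ 3 ^ 10 * 71680 * 61) →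
    3 ^ (a : ℕ) * (2 ^ (b : ℕ) * 7 ^ (c : ℕ)) ∈ [672, 14336, 59049, 1259712] := by
  decide +kernel

/-- For `q = 3`: the orders, with the possible pairs (residue, degree). -/
def three : List (ℕ × List (ℤ × ℕ)) :=
  [(384212160, [(-5, 1215), (5, 432), (-2, 120), (-2, 486), (-1, 60), (-1, 243), (-1, 5184),
      (1, 14580)]),
   (18009945, [(-5, 1215), (-1, 243)]),
   (4372480, [(-5, 56), (-1, 1280)]),
   (204960, [(-5, 56), (-2, 120), (-1, 60)])]

theorem three_complete : ∀ Nl ∈ three, ∀ j < 324, ∀ c ∈ [(-5 : ℤ), 5, -2, 2, -1, 1],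
    (61 * (j : ℕ) + c).toNat ∣ Nl.1 → (61 * (j : ℕ) + c).toNat ^ 2 ≤ Nl.1 →
    56 ≤ (61 * (j : ℕ) + c).toNat → (c, (61 * (j : ℕ) + c).toNat) ∈ Nl.2 := by
  decide +kernel

/-- No entries fit. -/
theorem three_none : ∀ Nl ∈ three, ∀ w ∈ Nl.2, ∀ ε ∈ [(1 : ℤ), -1], w.1 = 5 * ε →
    (∀ a ∈ Nl.2, a.1.natAbs = 2 → 1 + a.1 * a.2 ≠ ε * w.2) ∧
    (∀ a ∈ Nl.2, a.1.natAbs = 1 → ∀ b ∈ Nl.2, b.1.natAbs = 1 → ∀ c ∈ Nl.2, c.1.natAbs = 1 →
      ∀ d ∈ Nl.2, d.1.natAbs = 1 →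
      1 + (a.1 * a.2 + b.1 * b.2 + c.1 * c.2 + d.1 * d.2) ≠ ε * w.2) := by
  decide +kernel

theorem three_order {N Z : ℕ} (hNZ : N * Z = 3 ^ 10 * 71680 * 61) (hN : 305 ∣ N)
    (h56 : 56 ^ 2 ≤ N) (hZ1 : 1 < Z) (hZm : Z % 61 = 1) : ∃ l, (N, l) ∈ three := by
  obtain ⟨k, hk⟩ := hN
  have hdvd : Z ∣ 3 ^ 10 * (2 ^ 11 * 7) := ⟨k, by rw [hk] at hNZ; norm_num at hNZ ⊢; linarith⟩
  obtain ⟨a', b', ha, hb, rfl⟩ := (Nat.dvd_mul).mp hdvd
  obtain ⟨b'', c', hb', hc, rfl⟩ := (Nat.dvd_mul).mp hb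
  obtain ⟨a, ha', rfl⟩ := (Nat.dvd_prime_pow Nat.prime_three).mp ha
  obtain ⟨b, hb'', rfl⟩ := (Nat.dvd_prime_pow Nat.prime_two).mp hb'
  obtain ⟨c, hc', rfl⟩ : ∃ c < 2, c' = 7 ^ c := by
    rcases (Nat.dvd_prime (by norm_num)).mp hc with rfl | rfl
    exacts [⟨0, by norm_num, rfl⟩, ⟨1, by norm_num, rfl⟩]
  have hle : 3 ^ a * (2 ^ b * 7 ^ c) * 3136 ≤ 3 ^ 10 * 71680 * 61 := by
    rw [← hNZ, mul_comm N]
    exact Nat.mul_le_mul_left _ h56
  have h := z_list ⟨a, by omega⟩ ⟨b, by omega⟩ ⟨c, hc'⟩ ⟨hZm, hZ1, hle⟩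
  simp only [List.mem_cons, List.not_mem_nil, or_false] at h
  rcases h with h | h | h | h <;> rw [h] at hNZ <;> norm_num at hNZ <;>
    simp only [three, List.mem_cons, Prod.mk.injEq, List.not_mem_nil, or_false] <;>
    rcases (show N = 384212160 ∨ N = 18009945 ∨ N = 4372480 ∨ N = 204960 by omega) with
      rfl | rfl | rfl | rfl <;> simp

/-- The solutions of the three square cases for `q = 4`. -/
theorem solve4 {c c' i j A : ℤ} (hA : A = -45 ∨ A = -15 ∨ A = 55)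
    (hcc : (c = 2 ∧ c' = 5) ∨ (c = -2 ∧ c' = -5)) (hi : 1 ≤ i) (hj : 1 ≤ j)
    (hS : j * c' + i * c = Sv (4 : ℕ) 5 (41 : ℕ) 2 A)
    (hsq : (j * c' - i * c) ^ 2 = Sv (4 : ℕ) 5 (41 : ℕ) 2 A ^ 2 - 20 * 2 * Pv (4 : ℕ) 5 2 A) :
    (c = -2 ∧ j = 1) ∨ (c = 2 ∧ j = 3) ∨ (c = -2 ∧ j = 27) := by
  obtain ⟨r, S, hr, hS', hrS⟩ : ∃ r S : ℤ, (j * c' - i * c) ^ 2 = r ^ 2 ∧ j * c' + i * c = S ∧
      ((r = 955 ∧ S = 985) ∨ (r = 25 ∧ S = -245) ∨ (r = 3105 ∧ S = -3115)) := by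
    rcases hA with rfl | rfl | rfl
    · exact ⟨955, 985, hsq.trans (by norm_num [Sv, Pv]), hS.trans (by norm_num [Sv]), by simp⟩
    · exact ⟨25, -245, hsq.trans (by norm_num [Sv, Pv]), hS.trans (by norm_num [Sv]), by simp⟩
    · exact ⟨3105, -3115, hsq.trans (by norm_num [Sv, Pv]), hS.trans (by norm_num [Sv]), by simp⟩
  rcases hcc with ⟨rfl, rfl⟩ | ⟨rfl, rfl⟩ <;>
    rcases sq_eq_sq_iff_eq_or_eq_neg.mp hr with h | h <;>
      rcases hrS with ⟨rfl, rfl⟩ | ⟨rfl, rfl⟩ | ⟨rfl, rfl⟩ <;> omega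

/-- A degree prime to `p` is one of three small numbers for `q = 4`. -/
theorem core {p f q d m N Z r x : ℕ} {c : ℤ} (hp : p.Prime) (hq : q = p ^ f) (hq4 : 4 ≤ q)
    (_hdv : (d : ℤ) = dv q) (hm : dv q * m = P q) (hr : (r : ℤ) = R q)
    (hZ1 : 1 < Z) (hZm : Z % m = 1) (hNZ : N * Z = q ^ 10 * r * m) (hmN : m ∣ N)
    (hpx : ¬ p ∣ x) (hxN : x ∣ N) (hxsq : x ^ 2 ≤ N) (hxc : (m : ℤ) ∣ (x : ℤ) - c)
    (hxle : m ≤ x + 5) (hc : c.natAbs = 5 ∨ c.natAbs = 1 ∨ c.natAbs = 2) :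
    q = 4 ∧ c.natAbs = 2 ∧
      ((c = -2 ∧ x = 39) ∨ (c = 2 ∧ x = 125) ∨ (c = -2 ∧ x = 1105)) := by
  have hm41 : 41 ≤ m := by
    have := (P_ge (q := (q : ℤ)) (by omega)).1
    have h3 : dv q = 1 ∨ dv q = 5 := by unfold dv; split_ifs <;> simp
    rcases h3 with h | h <;> rw [h] at hm <;> omega
  have hccop : Nat.Coprime c.natAbs m := coprime_m hq4 hm (by omega)
  have hxm : Nat.Coprime x m := by
    refine Nat.dvd_one.mp ?_
    rw [← hccop.gcd_eq_one]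
    refine Nat.dvd_gcd (Int.natCast_dvd.mp ?_) (Nat.gcd_dvd_right _ _)
    have h1 : ((Nat.gcd x m : ℕ) : ℤ) ∣ (x : ℤ) :=
      Int.natCast_dvd_natCast.mpr (Nat.gcd_dvd_left _ _)
    have h2 : ((Nat.gcd x m : ℕ) : ℤ) ∣ (x : ℤ) - c :=
      (Int.natCast_dvd_natCast.mpr (Nat.gcd_dvd_right _ _)).trans hxc
    simpa using dvd_sub h1 h2
  have hxq : Nat.Coprime x (q ^ 10) := by
    rw [hq, ← pow_mul]
    exact ((hp.coprime_iff_not_dvd.mpr hpx).pow_left _).symm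
  have hxr : x ∣ r := by
    have h1 : x ∣ q ^ 10 * r * m := hxN.trans ⟨Z, hNZ.symm⟩
    exact hxq.dvd_of_dvd_mul_left (hxm.dvd_of_dvd_mul_right h1)
  obtain ⟨w, hw⟩ := hxr
  obtain ⟨K, c', hK, hcc, hc'5⟩ : ∃ K c' : ℤ, (K = 1 ∧ c.natAbs ≠ 2 ∨ K = 2 ∧ c.natAbs = 2) ∧
      c * c' = 5 * K ∧ |c'| ≤ 5 := by
    obtain h | h | h | h | h | h : c = 5 ∨ c = -5 ∨ c = 1 ∨ c = -1 ∨ c = 2 ∨ c = -2 := by omega
    · exact ⟨1, 1, by simp [h], by simp [h], by norm_num⟩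
    · exact ⟨1, -1, by simp [h], by simp [h], by norm_num⟩
    · exact ⟨1, 5, by simp [h], by simp [h], by norm_num⟩
    · exact ⟨1, -5, by simp [h], by simp [h], by norm_num⟩
    · exact ⟨2, 5, by simp [h], by simp [h], by norm_num⟩
    · exact ⟨2, -5, by simp [h], by simp [h], by norm_num⟩
  have hc5 : |c| ≤ 5 := by rw [abs_le]; omega
  obtain ⟨i, hi⟩ : (m : ℤ) ∣ K * w - c' := by
    have hR5 : (m : ℤ) ∣ R q - 5 :=
      ⟨dv q * (P q * ((q : ℤ) + 1) * (q + 2) - ((q : ℤ) ^ 3 + 4 * q + 6)), by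
        rw [R_eq]; linear_combination (-(P q * ((q : ℤ) + 1) * (q + 2) - ((q : ℤ) ^ 3 + 4 * q + 6))) * hm⟩
    have hcw : (m : ℤ) ∣ c * (K * w - c') := by
      have h : c * (K * w - c') = K * ((c - x) * w) + K * (R q - 5) := by
        rw [← hr, hw]; push_cast; linear_combination -hcc
      rw [h]
      refine dvd_add (dvd_mul_of_dvd_right (Dvd.dvd.mul_right ?_ _) _)
        (dvd_mul_of_dvd_right hR5 _)
      simpa using hxc.neg_right
    rw [Int.natCast_dvd, Int.natAbs_mul] at hcw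
    rw [Int.natCast_dvd]
    exact hccop.symm.dvd_of_dvd_mul_left hcw
  obtain ⟨j, hj⟩ := hxc
  have hx0 : 0 < x := by omega
  have hw0 : 0 < w := by
    rcases Nat.eq_zero_or_pos w with h | h
    · exfalso
      rw [h, mul_zero] at hw
      have := two_R_ge (q := (q : ℤ)) (by omega)
      rw [← hr, hw] at this
      have : (0 : ℤ) < (q : ℤ) ^ 10 := by positivity
      omega
    · exact h
  rw [abs_le] at hc5 hc'5
  have hj1 : 1 ≤ j := by nlinarith
  have hi0 : 0 ≤ i := by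
    rcases hK with ⟨rfl, -⟩ | ⟨rfl, -⟩ <;> nlinarith
  have hprod : (j * m + c) * (i * m + c') = K * R q := by
    rw [← hr, hw]; push_cast
    linear_combination (-(i * m + c')) * hj - (x : ℤ) * hi
  rcases eq_or_lt_of_le hi0 with hi' | hi'
  · exfalso
    subst hi'
    rw [mul_zero, sub_eq_zero] at hi
    rcases hK with ⟨rfl, hne⟩ | ⟨rfl, h2⟩
    · refine no_cofactor hp hq hq4 hm hZ1 hZm hmN hxN hxm hr hNZ ?_ hx0 hxsq
      rw [hw, mul_comm 5 x]
      refine mul_dvd_mul_left x ?_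
      have h5 : c.natAbs * c'.natAbs = 5 := by rw [← Int.natAbs_mul, hcc]; rfl
      have hw' : w = c'.natAbs := by omega
      exact hw' ▸ dvd_of_mul_left_eq _ h5
    · rcases (show c = 2 ∨ c = -2 by omega) with rfl | rfl <;> omega
  · obtain ⟨rfl, hK2, A, hA, hS, hsq⟩ :=
      key hq4 hm (by omega) hcc (abs_le.mpr hc5) (abs_le.mpr hc'5) (by omega) hj1 hprod
    subst hK2
    obtain rfl : m = 41 := by norm_num [dv, P] at hm; omega
    have h2 : c.natAbs = 2 := by omega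
    refine ⟨rfl, h2, ?_⟩
    have hm' : dv 4 = 5 := rfl
    rw [hm'] at hS hsq
    have hcc' : (c = 2 ∧ c' = 5) ∨ (c = -2 ∧ c' = -5) := by
      rcases (show c = 2 ∨ c = -2 by omega) with rfl | rfl <;> omega
    rcases solve4 hA hcc' (by omega) hj1 hS hsq with ⟨rfl, rfl⟩ | ⟨rfl, rfl⟩ | ⟨rfl, rfl⟩ <;> omega

/-- A list of pairs with squares summing to four. -/
theorem four_cases {D : Multiset (ℤ × ℕ)} (hsum : (D.map fun x => x.1 ^ 2).sum = 4)
    (hne : ∀ x ∈ D, x.1 ≠ 0) :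
    (∃ a, D = {a} ∧ a.1.natAbs = 2) ∨
      (∃ a b c d, D = {a, b, c, d} ∧ ∀ x ∈ D, x.1.natAbs = 1) := by
  have hnonneg : ∀ {E : Multiset (ℤ × ℕ)}, (∀ x ∈ E, x.1 ≠ 0) →
      (E.card : ℤ) ≤ (E.map fun x => x.1 ^ 2).sum := by
    intro E hE
    induction E using Multiset.induction with
    | empty => simp
    | cons a E ih =>
      have h1 := ih fun x hx => hE x (Multiset.mem_cons_of_mem hx)
      have h2 : 1 ≤ a.1 ^ 2 :=
        (sq_pos_iff.mpr (hE a (Multiset.mem_cons_self a E)) : 0 < a.1 ^ 2)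
      rw [Multiset.card_cons, Multiset.map_cons, Multiset.sum_cons]
      push_cast
      linarith
  by_cases h2 : ∃ a ∈ D, 2 ≤ a.1.natAbs
  · obtain ⟨a, ha, ha2⟩ := h2
    obtain ⟨E, rfl⟩ := Multiset.exists_cons_of_mem ha
    rw [Multiset.map_cons, Multiset.sum_cons] at hsum
    have h1 := hnonneg fun x hx => hne x (Multiset.mem_cons_of_mem hx)
    have ha4 : (4 : ℤ) ≤ a.1 ^ 2 := by
      rw [← Int.natAbs_sq a.1]
      have : (2 : ℤ) ≤ (a.1.natAbs : ℤ) := by exact_mod_cast ha2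
      nlinarith
    have hE : E = 0 := Multiset.card_eq_zero.mp (by omega)
    subst hE
    refine Or.inl ⟨a, rfl, ?_⟩
    rw [Multiset.map_zero, Multiset.sum_zero, add_zero] at hsum
    by_contra h
    have h3 : (3 : ℤ) ≤ (a.1.natAbs : ℤ) := by omega
    rw [← Int.natAbs_sq a.1] at hsum
    nlinarith
  · push Not at h2
    have h1 : ∀ x ∈ D, x.1.natAbs = 1 := fun x hx => by
      have := h2 x hx
      have := Int.natAbs_pos.mpr (hne x hx)
      omega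
    have hcard : D.card = 4 := by
      rw [Multiset.map_congr rfl (g := fun _ => (1 : ℤ)) fun x hx => by
        rw [← Int.natAbs_sq, h1 x hx]; rfl] at hsum
      simp at hsum
      exact_mod_cast hsum
    obtain ⟨a, b, c, d, rfl⟩ := Multiset.card_eq_four.mp hcard
    exact Or.inr ⟨a, b, c, d, rfl, h1⟩

/-- The case `q = 3`. -/
theorem no_system_three {N Z : ℕ} (hNZ : N * Z = 3 ^ 10 * 71680 * 61) (hN : 305 ∣ N)
    (hZ1 : 1 < Z) (hZm : Z % 61 = 1) : ¬ DegreeSystem N 61 := by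
  rintro ⟨D, ε, e, hsum, hε, hrel, heN, hem, hele, hesq, hD⟩
  have h56 : 56 ^ 2 ≤ N := le_trans (Nat.pow_le_pow_left (by omega) 2) hesq
  obtain ⟨l, hl⟩ := three_order hNZ hN h56 hZ1 hZm
  have hNle : N ≤ 384212160 := by
    simp only [three, List.mem_cons, Prod.mk.injEq, List.not_mem_nil, or_false] at hl
    omega
  have hget : ∀ (x : ℕ) (c : ℤ), c ∈ [(-5 : ℤ), 5, -2, 2, -1, 1] → x ∣ N → x ^ 2 ≤ N →
      (61 : ℤ) ∣ (x : ℤ) - c → 56 ≤ x → (c, x) ∈ l := by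
    intro x c hc hxN hx2 hxc hx56
    obtain ⟨j, hj⟩ := hxc
    have hx : x < 19602 := by
      by_contra h
      have := Nat.pow_le_pow_left (not_lt.mp h) 2
      omega
    have hc5 : -5 ≤ c ∧ c ≤ 5 := by
      simp only [List.mem_cons, List.not_mem_nil, or_false] at hc
      omega
    have hjx : (61 * (j.toNat : ℤ) + c).toNat = x := by omega
    have := three_complete (N, l) hl j.toNat (by omega) c hc
    rw [hjx] at this
    exact this hxN hx2 hx56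
  have hw := hget e (5 * ε) (by rcases hε with rfl | rfl <;> simp) heN hesq
    (by simpa using hem) (by omega)
  have hEps : ε ∈ [(1 : ℤ), -1] := by simpa using hε
  obtain ⟨hs, hf⟩ := three_none (N, l) hl _ hw ε hEps rfl
  have hmem : ∀ x ∈ D, (x.1.natAbs = 1 ∨ x.1.natAbs = 2) → x ∈ l := by
    intro x hx h
    obtain ⟨-, hxN, hxm, hxle, hxsq⟩ := hD x hx
    refine hget x.2 x.1 ?_ hxN hxsq (by simpa using hxm) (by omega)
    simp only [List.mem_cons, List.not_mem_nil, or_false]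
    omega
  rcases four_cases hsum fun x hx => (hD x hx).1 with ⟨a, rfl, ha⟩ | ⟨a, b, c, d, rfl, h1⟩
  · refine hs a (hmem a (Multiset.mem_singleton_self a) (Or.inr ha)) ha ?_
    simpa using hrel
  · refine hf a (hmem a (by simp) (Or.inl (h1 a (by simp)))) (h1 a (by simp))
      b (hmem b (by simp) (Or.inl (h1 b (by simp)))) (h1 b (by simp))
      c (hmem c (by simp) (Or.inl (h1 c (by simp)))) (h1 c (by simp))
      d (hmem d (by simp) (Or.inl (h1 d (by simp)))) (h1 d (by simp)) ?_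
    simp only [Multiset.insert_eq_cons, Multiset.map_cons, Multiset.sum_cons,
      Multiset.map_singleton, Multiset.sum_singleton] at hrel
    linarith

end Arith

open Arith

/-- The degree system is impossible. -/
theorem no_degreeSystem {p f q d m N : ℕ} (hp : p.Prime) (hf : f ≠ 0) (hq : q = p ^ f)
    (hq3 : 3 ≤ q) (hd : d = Nat.gcd 5 (q + 1))
    (hm : m * d = q ^ 4 - q ^ 3 + q ^ 2 - q + 1)
    (hN : ∃ Z, 1 < Z ∧ Z % m = 1 ∧
      N * Z = q ^ 10 * ((q + 1) ^ 4 * (q - 1) ^ 2 * (q ^ 2 + 1) * (q ^ 2 - q + 1)) * m)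
    (hmN : 5 * m ∣ N) : ¬ DegreeSystem N m := by
  have _ := hf
  obtain ⟨Z, hZ1, hZm, hNZ⟩ := hN
  obtain ⟨hdv, hm', r, hr, hrnat⟩ := setup hq3 hd hm
  rw [← hrnat] at hNZ
  rcases eq_or_ne q 3 with rfl | hq3'
  · have hd1 : d = 1 := by rw [hd]; rfl
    subst hd1
    have hm61 : m = 61 := by norm_num at hm; omega
    subst hm61
    refine no_system_three (Z := Z) ?_ hmN hZ1 hZm
    rw [hNZ, hrnat]
    rfl
  have hq4 : 4 ≤ q := by omega
  rintro ⟨D, ε, e, hsum, hε, hrel, heN, hem, hele, hesq, hD⟩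
  have hcases := four_cases hsum fun x hx => (hD x hx).1
  have hsmall : ∀ y ∈ D, y.1.natAbs = 1 ∨ y.1.natAbs = 2 := by
    intro y hy
    rcases hcases with ⟨a, rfl, ha⟩ | ⟨a, b, c, d', rfl, h1⟩
    · rw [Multiset.mem_singleton.mp hy]; exact Or.inr ha
    · exact Or.inl (h1 y hy)
  obtain ⟨x, c, hpx, hxN, hxsq, hxc, hxle, hcval, hfour⟩ : ∃ (x : ℕ) (c : ℤ), ¬ p ∣ x ∧ x ∣ N ∧
      x ^ 2 ≤ N ∧ (m : ℤ) ∣ (x : ℤ) - c ∧ m ≤ x + 5 ∧
      (c.natAbs = 5 ∨ c.natAbs = 1 ∨ c.natAbs = 2) ∧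
      (c.natAbs = 2 → (c, x) ∈ D) := by
    by_cases hpe : p ∣ e
    · obtain ⟨y, hy, hpy⟩ : ∃ y ∈ D, ¬ p ∣ y.2 := by
        by_contra h
        push Not at h
        have h1 : (p : ℤ) ∣ (D.map fun x => x.1 * (x.2 : ℤ)).sum :=
          Multiset.dvd_sum fun z hz => by
            obtain ⟨y, hy, rfl⟩ := Multiset.mem_map.mp hz
            exact dvd_mul_of_dvd_right (Int.natCast_dvd_natCast.mpr (h y hy)) _
        have h2 : (p : ℤ) ∣ ε * e := dvd_mul_of_dvd_right (Int.natCast_dvd_natCast.mpr hpe) _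
        rw [← hrel] at h2
        have h3 : (p : ℤ) ∣ 1 := (Int.dvd_add_left h1).mp h2
        exact hp.one_lt.ne' (Nat.dvd_one.mp (Int.natCast_dvd_natCast.mp (by exact_mod_cast h3)))
      obtain ⟨-, hyN, hym, hyle, hysq⟩ := hD y hy
      exact ⟨y.2, y.1, hpy, hyN, hysq, hym, by omega, Or.inr (hsmall y hy), fun _ => hy⟩
    · refine ⟨e, 5 * ε, hpe, heN, hesq, hem, hele, Or.inl ?_, fun h => absurd h ?_⟩ <;>
        rcases hε with rfl | rfl <;> decide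
  obtain ⟨hq4', hc2, hx⟩ := core hp hq hq4 hdv hm' hr hZ1 hZm hNZ
    ((Dvd.intro_left 5 rfl).trans hmN) hpx hxN hxsq hxc hxle hcval
  subst hq4'
  have hcx := hfour hc2
  rcases hcases with ⟨a, rfl, -⟩ | ⟨a, b, c', d', rfl, h1⟩
  · obtain rfl := (Multiset.mem_singleton.mp hcx).symm
    rw [Multiset.map_singleton, Multiset.sum_singleton] at hrel
    have hm41 : m = 41 := by norm_num [dv, P] at hm'; omega
    subst hm41
    have hT : e ∣ 4 ^ 10 * 1243125 * 41 := by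
      have : (r : ℤ) = 1243125 := by rw [hr]; norm_num [R]
      have hr' : r = 1243125 := by exact_mod_cast this
      rw [hr'] at hNZ
      exact heN.trans ⟨Z, hNZ.symm⟩
    have he : e = 77 ∨ e = 251 ∨ e = 2209 := by
      rcases hx with ⟨rfl, rfl⟩ | ⟨rfl, rfl⟩ | ⟨rfl, rfl⟩ <;> rcases hε with rfl | rfl <;>
        norm_num at hrel <;> omega
    rcases he with rfl | rfl | rfl <;> norm_num at hT
  · have := h1 _ hcx
    simp only at this
    omega

/-- No nontrivial prime power dividing the cofactor is `≡ 1 (mod m)`. -/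
theorem no_primePower {p f q d m l a : ℕ} (hp : p.Prime) (hf : f ≠ 0) (hq : q = p ^ f)
    (hq3 : 3 ≤ q) (hd : d = Nat.gcd 5 (q + 1))
    (hm : m * d = q ^ 4 - q ^ 3 + q ^ 2 - q + 1) (hl : l.Prime) (hlp : l ≠ p)
    (hdvd : l ^ a ∣ (q + 1) ^ 4 * (q - 1) ^ 2 * (q ^ 2 + 1) * (q ^ 2 - q + 1))
    (hmod : l ^ a % m = 1) : a = 0 := by
  have _ := And.intro hp hlp
  have _ := And.intro hf hq
  obtain ⟨-, hm', r, hr, hrnat⟩ := setup hq3 hd hm
  rw [← hrnat] at hdvd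
  by_contra ha
  obtain ⟨w, hw⟩ := hdvd
  rcases eq_or_ne q 3 with rfl | hq3'
  · have hm61 : m = 61 := by norm_num [dv, P] at hm'; omega
    have hr' : r = 2 ^ 11 * (5 * 7) := by rw [hrnat]; rfl
    have hld : l ∣ 2 ^ 11 * (5 * 7) :=
      hr' ▸ (dvd_pow_self l ha).trans ⟨w, hw⟩
    have hle : 2 ^ a ≤ 2 ^ 17 := by
      refine (Nat.pow_le_pow_left hl.two_le a).trans ?_
      refine (Nat.le_of_dvd (by norm_num) (hr' ▸ ⟨w, hw⟩ : l ^ a ∣ 2 ^ 11 * (5 * 7))).trans ?_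
      norm_num
    have ha17 : a < 18 := Nat.lt_succ_of_le ((Nat.pow_le_pow_iff_right (by norm_num)).mp hle)
    have hl' : l ∈ [2, 5, 7] := by
      rcases hl.dvd_mul.mp hld with h | h
      · simp [(Nat.prime_dvd_prime_iff_eq hl Nat.prime_two).mp (hl.dvd_of_dvd_pow h)]
      · rcases hl.dvd_mul.mp h with h | h
        · simp [(Nat.prime_dvd_prime_iff_eq hl (by norm_num)).mp h]
        · simp [(Nat.prime_dvd_prime_iff_eq hl (by norm_num)).mp h]
    have key : ∀ l ∈ [2, 5, 7], ∀ a < 18, 0 < a → l ^ a ∣ 71680 → l ^ a % 61 ≠ 1 := by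
      decide +kernel
    exact key l hl' a ha17 (by omega) ⟨w, by rw [← hw, hr']; rfl⟩ (hm61 ▸ hmod)
  have hq4 : 4 ≤ q := by omega
  have hm41 : 41 ≤ m := by
    have := (P_ge (q := (q : ℤ)) (by omega)).1
    have h3 : dv q = 1 ∨ dv q = 5 := by unfold dv; split_ifs <;> simp
    rcases h3 with h | h <;> rw [h] at hm' <;> omega
  have hx1 : 1 < l ^ a := Nat.one_lt_pow ha hl.one_lt
  obtain ⟨j, hj⟩ : (m : ℤ) ∣ ((l ^ a : ℕ) : ℤ) - 1 := by
    have h := Nat.div_add_mod (l ^ a) m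
    rw [hmod] at h
    exact ⟨((l ^ a / m : ℕ) : ℤ), by
      have h' : (m : ℤ) * ((l ^ a / m : ℕ) : ℤ) + 1 = ((l ^ a : ℕ) : ℤ) := by exact_mod_cast h
      linarith⟩
  have hj1 : 1 ≤ j := by
    have : (1 : ℤ) < ((l ^ a : ℕ) : ℤ) := by exact_mod_cast hx1
    nlinarith
  obtain ⟨i, hi⟩ : (m : ℤ) ∣ (w : ℤ) - 5 := by
    have hR5 : (m : ℤ) ∣ R q - 5 :=
      ⟨dv q * (P q * ((q : ℤ) + 1) * (q + 2) - ((q : ℤ) ^ 3 + 4 * q + 6)), by
        rw [R_eq]
        linear_combination (-(P q * ((q : ℤ) + 1) * (q + 2) - ((q : ℤ) ^ 3 + 4 * q + 6))) * hm'⟩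
    have h : (w : ℤ) - 5 = (R q - 5) - (((l ^ a : ℕ) : ℤ) - 1) * w := by
      rw [← hr, hw, Nat.cast_mul]; ring
    rw [h]
    exact dvd_sub hR5 (Dvd.dvd.mul_right ⟨j, hj⟩ _)
  have hprod : (j * m + 1) * (i * m + 5) = 1 * R q := by
    rw [← hr, hw, Nat.cast_mul]
    linear_combination (-(i * m + 5)) * hj - ((l ^ a : ℕ) : ℤ) * hi
  have hi0 : 0 ≤ i := by nlinarith
  rcases eq_or_lt_of_le hi0 with h0 | h0
  swap
  · obtain ⟨-, hK, -⟩ := key hq4 hm' (Or.inl rfl) (c := 1) (c' := 5) (by norm_num) (by norm_num)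
      (by norm_num) (by omega) hj1 hprod
    omega
  -- the cofactor is five
  subst h0
  have hw5 : w = 5 := by rw [mul_zero] at hi; omega
  rw [hw5, hrnat] at hw
  have hsq : ∀ s : ℕ, s.Prime → s ^ 2 ∣ l ^ a * 5 → s = l := by
    intro s hs h
    by_contra hne
    have hcop : Nat.Coprime (s ^ 2) (l ^ a) :=
      Nat.Coprime.pow _ _ ((Nat.coprime_primes hs hl).mpr hne)
    have h' := Nat.le_of_dvd (by norm_num) (hcop.dvd_of_dvd_mul_left h)
    have := hs.two_le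
    have h5 : s < 3 := by nlinarith
    obtain rfl : s = 2 := by omega
    exact absurd (hcop.dvd_of_dvd_mul_left h) (by norm_num)
  obtain ⟨s, hs, hsdvd⟩ := Nat.exists_prime_and_dvd (show q + 1 ≠ 1 by omega)
  obtain ⟨t, ht, htdvd⟩ := Nat.exists_prime_and_dvd (show q - 1 ≠ 1 by omega)
  have hsl : s = l := hsq s hs (by
    rw [← hw]
    exact ((pow_dvd_pow_of_dvd hsdvd 2).trans (pow_dvd_pow _ (by norm_num))).mul_right _
      |>.mul_right _ |>.mul_right _)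
  have htl : t = l := hsq t ht (by
    rw [← hw]
    exact ((pow_dvd_pow_of_dvd htdvd 2).mul_left _).mul_right _ |>.mul_right _)
  subst hsl htl
  obtain rfl : t = 2 := by
    have h2 : t ∣ 2 := by
      have := Nat.dvd_sub hsdvd htdvd
      rwa [show q + 1 - (q - 1) = 2 by omega] at this
    exact (Nat.prime_dvd_prime_iff_eq ht Nat.prime_two).mp h2
  have hodd : Nat.Coprime (q ^ 2 - q + 1) (2 ^ a) := by
    refine (Nat.coprime_pow_right_iff (by omega) _ _).mpr ?_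
    rw [Nat.coprime_two_right]
    have he : Even (q ^ 2 - q) := by
      rw [sq, ← Nat.mul_sub_one]
      exact Nat.even_mul_pred_self q
    exact he.add_one
  have h5 : q ^ 2 - q + 1 ∣ 5 :=
    hodd.dvd_of_dvd_mul_left (hw ▸ dvd_mul_left _ _)
  have := Nat.le_of_dvd (by norm_num) h5
  have : 4 * q ≤ q ^ 2 := by nlinarith
  omega

end Cfsg.Agent.MaxSub.SingerSU5
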