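import Cfsg.Agent.ClassicalMax.UnitaryProper
import Cfsg.Agent.GeoClasses.UnitParabolic
import Cfsg.Agent.Classical.UGroup
import Cfsg.Agent.MaxSub.SingerSU5.Arith

/-!
The ambient group of the Singer normaliser in the five-dimensional special unitary group.
-/

set_option autoImplicit false
set_option linter.style.haveILetI false

namespace Cfsg.Agent.MaxSub.SingerSU5

open Cfsg Cfsg.Geo Cfsg.Agent.Classical.U Cfsg.Agent.ClassicalMax Cfsg.Agent.GeoClasses
open scoped MatrixGroups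

variable {F : Type*} [Field F] [Fintype F] (q : ℕ) (hF : Fintype.card F = q ^ 2)
include hF

theorem card_S : Nat.card ↥(Cfsg.GU 5 F q ⊓ Cfsg.Geo.specialLinear (Fin 5) F) =
    q ^ 10 * ((q + 1) ^ 4 * (q - 1) ^ 2 * (q ^ 2 + 1) * (q ^ 2 - q + 1)) *
      (q ^ 4 - q ^ 3 + q ^ 2 - q + 1) := by
  have hs := sqField_of_fintype hF
  haveI : Finite F := hs.1
  show Nat.card ↥(suGL 5 F q) = _
  have he : Nat.card ↥(suGL 5 F q) = Nat.card ↥(SUG 5 F q) := by
    refine (Nat.card_congr (Equiv.ofBijective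
      (fun g : SUG 5 F q => (⟨ugToGL 5 F q g.1, ugToGL_mem_suGL g.2⟩ : suGL 5 F q)) ⟨?_, ?_⟩)).symm
    · intro a b h
      exact Subtype.ext ((guEquiv 5 F q).symm.injective (Subtype.ext (congrArg Subtype.val h :)))
    · rintro ⟨g, hg⟩
      obtain ⟨k, hk, rfl⟩ := exists_ugToGL_eq hg
      exact ⟨⟨k, hk⟩, rfl⟩
  rw [he]
  refine Nat.eq_of_mul_eq_mul_left (show 0 < q + 1 by omega) ?_
  rw [card_SUG hs (by norm_num), card_UG hs]
  simp only [Finset.prod_range_succ, Finset.prod_range_zero, Nat.even_iff]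
  norm_num
  have hq := hs.one_lt
  have h1 : 1 ≤ q := by omega
  have h2 : q ≤ q ^ 2 := Nat.le_self_pow two_ne_zero q
  have h34 : q ^ 3 ≤ q ^ 4 := Nat.pow_le_pow_right h1 (by norm_num)
  have h4 : q ≤ q ^ 4 - q ^ 3 + q ^ 2 := h2.trans (Nat.le_add_left _ _)
  zify [h1, h2, h34, h4, Nat.one_le_pow 2 q h1, Nat.one_le_pow 4 q h1]
  ring

theorem card_S_int : (Nat.card ↥(Cfsg.GU 5 F q ⊓ Cfsg.Geo.specialLinear (Fin 5) F) : ℤ) =
    (q : ℤ) ^ 10 * Arith.R q * Arith.P q := by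
  rw [card_S q hF]
  have hq := (sqField_of_fintype hF).one_lt
  have h1 : 1 ≤ q := by omega
  have h2 : q ≤ q ^ 2 := Nat.le_self_pow two_ne_zero q
  have h34 : q ^ 3 ≤ q ^ 4 := Nat.pow_le_pow_right h1 (by norm_num)
  have h4 : q ≤ q ^ 4 - q ^ 3 + q ^ 2 := h2.trans (Nat.le_add_left _ _)
  push_cast [h1, h2, h34, h4]
  rfl

theorem commutator_S (_hq : 2 ≤ q) :
    commutator ↥(Cfsg.GU 5 F q ⊓ Cfsg.Geo.specialLinear (Fin 5) F) = ⊤ := by
  refine Subgroup.map_injective (Subgroup.subtype_injective _) ?_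
  rw [← MonoidHom.range_eq_map, Subgroup.range_subtype, commutator_def, Subgroup.map_commutator,
    ← MonoidHom.range_eq_map, Subgroup.range_subtype]
  exact suGL_commutator (sqField_of_fintype hF) (by norm_num) (by norm_num)

theorem not_le_normalizer {K : Subalgebra F (Matrix (Fin 5) (Fin 5) F)}
    (hK : Cfsg.Geo.IsFieldSubalgebra 5 K) :
    ¬ Cfsg.GU 5 F q ⊓ Cfsg.Geo.specialLinear (Fin 5) F ≤ Cfsg.Geo.subalgebraNormalizer K :=
  suGL_not_le_subalgebraNormalizer (sqField_of_fintype hF) (by norm_num) (by norm_num) hK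

end Cfsg.Agent.MaxSub.SingerSU5
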