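import Cfsg.Agent.CharExt.AbelianTI
import Cfsg.Agent.Char.Virtual

/-!
Character degrees of a group with a self-centralising abelian subgroup of index five in its
normaliser, contained in no proper normal subgroup.
-/

set_option autoImplicit false
set_option linter.unusedSectionVars false

namespace Cfsg.Agent.MaxSub.SingerSU5

open scoped ComplexConjugate
open Cfsg

universe u

/-- What the character theory says about the degrees: `D` lists the pairs (value on the torus,
degree) of the non-principal non-exceptional characters that do not vanish on the torus, `e` is the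
exceptional degree. -/
def DegreeSystem (N m : ℕ) : Prop :=
  ∃ (D : Multiset (ℤ × ℕ)) (ε : ℤ) (e : ℕ),
    (D.map fun x => x.1 ^ 2).sum = 4 ∧ (ε = 1 ∨ ε = -1) ∧
    1 + (D.map fun x => x.1 * (x.2 : ℤ)).sum = ε * e ∧
    e ∣ N ∧ (m : ℤ) ∣ (e : ℤ) - 5 * ε ∧ m ≤ e + 5 ∧ e ^ 2 ≤ N ∧
    ∀ x ∈ D, x.1 ≠ 0 ∧ x.2 ∣ N ∧ (m : ℤ) ∣ (x.2 : ℤ) - x.1 ∧ m ≤ x.2 + 2 ∧ x.2 ^ 2 ≤ N

variable {G : Type u} [Group G] [Fintype G] (M : Subgroup G) [Fintype M] (L : Subgroup M) [L.Normal]

open Classical in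
/-- The expansion on `L` of a class function of `G`. -/
theorem res_expand (θ : Cfsg.IrrCharacter G)
    (a : ℕ) (w : {η : Cfsg.IrrCharacter M // ¬ CharExt.KTriv L η} → ℂ)
    (hw : ∀ η, Cfsg.classInner (fun x : M => (θ : G → ℂ) x) (η.1 : M → ℂ) = a + w η) :
    ∃ B : ℕ, ∀ k : L, (θ : G → ℂ) ((k : M) : G) =
      B + (a * ∑ η : {η : Cfsg.IrrCharacter M // ¬ CharExt.KTriv L η}, (η.1 : M → ℂ) k) +
        ∑ η : {η : Cfsg.IrrCharacter M // ¬ CharExt.KTriv L η}, w η * (η.1 : M → ℂ) k := by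
  have hr : Cfsg.IsCharacter M (fun x : M => (θ : G → ℂ) x) :=
    CharInd.isCharacter_res M (Char.isCharacter_of_irr θ.2)
  choose b hb using Char.isCharacter_classInner_nat hr
  choose d hd0 hd using fun ψ : Cfsg.IrrCharacter M => Char.irr_one_pos ψ.2
  refine ⟨∑ ψ ∈ Finset.univ.filter (CharExt.KTriv L), b ψ * d ψ, fun k => ?_⟩
  have hexp : (θ : G → ℂ) ((k : M) : G) = _ :=
    congrFun (Char.eq_sum_classInner_smul (Char.isCharacter_isClassFunction hr)) (k : M)
  rw [hexp, Finset.sum_apply, ← Finset.sum_filter_add_sum_filter_not Finset.univ (CharExt.KTriv L),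
    add_assoc]
  congr 1
  · push_cast
    refine Finset.sum_congr rfl fun ψ hψ => ?_
    rw [Pi.smul_apply, smul_eq_mul, hb, (Finset.mem_filter.mp hψ).2 k k.2, hd]
  · rw [Finset.sum_subtype (Finset.univ.filter (fun η => ¬ CharExt.KTriv L η))
      (p := fun η : Cfsg.IrrCharacter M => ¬ CharExt.KTriv L η) (fun η => by simp),
      Finset.mul_sum, ← Finset.sum_add_distrib]
    refine Finset.sum_congr rfl fun η _ => ?_
    rw [Pi.smul_apply, smul_eq_mul, hw, add_mul]

variable (hTI : ∀ g : G, g ∉ M → ∀ k : M, k ∈ L → ∀ k' : M, k' ∈ L → g * (k : G) * g⁻¹ = k' → k = 1)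
  (hC : ∀ k ∈ L, k ≠ 1 → Subgroup.centralizer ({k} : Set M) ≤ L)
  (hab : ∀ a ∈ L, ∀ b ∈ L, a * b = b * a)
  (hidx : L.index = 5)

include hC hab hidx in
open Classical in
theorem card_exc : Fintype.card {η : Cfsg.IrrCharacter M // ¬ CharExt.KTriv L η} * 5 + 1 =
    Nat.card L := by
  rw [Fintype.card_subtype, ← hidx]
  exact CharExt.card_excSet M L hC hab

include hC hab hidx in
open Classical in
theorem sum_exc (k : L) :
    ∑ η : {η : Cfsg.IrrCharacter M // ¬ CharExt.KTriv L η}, (η.1 : M → ℂ) k =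
      (if k = 1 then (Nat.card L : ℂ) else 0) - 1 := by
  have h := CharExt.sum_not_kTriv_mul L (k : M)
  rw [Finset.sum_subtype (Finset.univ.filter (fun η => ¬ CharExt.KTriv L η))
    (p := fun η : Cfsg.IrrCharacter M => ¬ CharExt.KTriv L η) (fun η => by simp),
    Finset.sum_congr rfl (fun η _ => by rw [CharExt.degree_eq_index M L hC hab η.2]),
    ← Finset.mul_sum, if_pos k.2, hidx, ← Subgroup.card_mul_index L, hidx] at h
  apply mul_left_cancel₀ (by norm_num : (5 : ℂ) ≠ 0)
  by_cases hk : k = 1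
  · subst hk
    simp only [OneMemClass.coe_one, if_true] at h ⊢
    push_cast at h ⊢
    linear_combination h
  · have hk' : (k : M) ≠ 1 := fun e => hk (Subtype.ext e)
    rw [if_neg hk'] at h
    rw [if_neg hk]
    push_cast at h ⊢
    linear_combination h

variable (hCG : ∀ k ∈ L, k ≠ 1 → Nat.card (Subgroup.centralizer ({((k : M) : G)} : Set G)) = Nat.card L)
  (hgen : ∀ T : Subgroup G, T.Normal → (∀ k ∈ L, ((k : M) : G) ∈ T) → T = ⊤)

include hgen in
/-- An irreducible character whose kernel contains `L` is principal. -/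
theorem eq_one_of_ktriv {θ : Cfsg.IrrCharacter G}
    (h : ∀ k : L, (θ : G → ℂ) ((k : M) : G) = (θ : G → ℂ) 1) : (θ : G → ℂ) = fun _ => 1 := by
  obtain ⟨T, hT, hmem⟩ := Char.isCharacter_exists_kernel (Char.isCharacter_of_irr θ.2)
  have htop := hgen T hT fun k hk => (hmem _).mpr (h ⟨k, hk⟩)
  by_contra hne
  have h0 := Char.irr_sum_eq_zero θ.2 hne
  rw [Finset.sum_congr rfl (fun g _ => (hmem g).mp (htop ▸ Subgroup.mem_top g)), Finset.sum_const,
    nsmul_eq_mul, mul_eq_zero] at h0
  rcases h0 with h0 | h0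
  · exact Fintype.card_ne_zero (α := G) (Nat.cast_eq_zero.mp h0)
  · exact Char.irr_one_ne_zero θ.2 h0

include hTI hC hab hidx hCG hgen in
open Classical in
set_option maxHeartbeats 2000000 in
/-- The degree system. -/
theorem degreeSystem (hm : 36 < Nat.card L) : DegreeSystem (Nat.card G) (Nat.card L) := by
  set m := Nat.card L with hmdef
  have ht := card_exc M L hC hab hidx
  set t := Fintype.card {η : Cfsg.IrrCharacter M // ¬ CharExt.KTriv L η} with htdef
  rw [← hmdef] at ht
  obtain ⟨εc, f, h1 | ⟨hεc, hinj, hf⟩⟩ := CharExt.exists_exceptional M L hTI hC hab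
  · exfalso
    rw [htdef, Fintype.card_subtype, h1] at ht
    omega
  obtain ⟨ε, hεcast, hε⟩ : ∃ ε : ℤ, εc = (ε : ℂ) ∧ (ε = 1 ∨ ε = -1) := by
    rcases hεc with h | h
    · exact ⟨1, by simp [h], Or.inl rfl⟩
    · exact ⟨-1, by simp [h], Or.inr rfl⟩
  subst hεcast
  have hexc : ∀ η : {η : Cfsg.IrrCharacter M // ¬ CharExt.KTriv L η}, (η.1 : M → ℂ) 1 = 5 := fun η => by
    rw [CharExt.degree_eq_index M L hC hab η.2, hidx]; norm_num
  -- differences of multiplicities
  have hdiff : ∀ (θ : Cfsg.IrrCharacter G) (η η' : {η : Cfsg.IrrCharacter M // ¬ CharExt.KTriv L η}),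
      Cfsg.classInner (fun x : M => (θ : G → ℂ) x) (η.1 : M → ℂ) -
        Cfsg.classInner (fun x : M => (θ : G → ℂ) x) (η'.1 : M → ℂ) =
      (ε : ℂ) * ((if θ = f η then 1 else 0) - (if θ = f η' then 1 else 0)) := by
    intro θ η η'
    rw [← Char.classInner_sub_right, ← CharInd.classInner_indFun_right M _ (Char.irr_isClassFunction θ.2),
      hf, Char.classInner_smul_right, Char.classInner_sub_right, Char.classInner_irrCharacter,
      Char.classInner_irrCharacter]
    simp
  have hη0 : Nonempty {η : Cfsg.IrrCharacter M // ¬ CharExt.KTriv L η} := by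
    rw [← Fintype.card_pos_iff, ← htdef]; omega
  obtain ⟨η₀⟩ := hη0
  have hsum1 : ∀ a : ℕ, (a : ℂ) * ∑ _η : {η : Cfsg.IrrCharacter M // ¬ CharExt.KTriv L η}, (5 : ℂ) =
      (a : ℂ) * ((m : ℂ) - 1) := fun a => by
    rw [Finset.sum_const, Finset.card_univ, ← htdef, nsmul_eq_mul, ← ht]; push_cast; ring
  -- non-exceptional characters
  have hNE : ∀ θ : Cfsg.IrrCharacter G, (∀ η, θ ≠ f η) → ∃ (a : ℕ) (δ : ℤ), 0 ≤ (a : ℤ) + δ ∧
      (θ : G → ℂ) 1 = a * m + δ ∧ ∀ k : L, k ≠ 1 → (θ : G → ℂ) ((k : M) : G) = δ := by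
    intro θ hθ
    obtain ⟨a, ha⟩ := Char.isCharacter_classInner_nat
      (CharInd.isCharacter_res M (Char.isCharacter_of_irr θ.2)) η₀.1
    obtain ⟨B, hB⟩ := res_expand M L θ a (fun _ => 0) (fun η => by
      have := hdiff θ η η₀
      simp only [hθ, if_false, sub_self, mul_zero, sub_eq_zero] at this
      rw [this, ha, add_zero])
    refine ⟨a, (B : ℤ) - a, by omega, ?_, fun k hk => ?_⟩
    · have := hB 1
      simp only [zero_mul, Finset.sum_const_zero, add_zero, OneMemClass.coe_one, hexc, hsum1] at this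
      rw [this]; push_cast; ring
    · have := hB k
      simp only [zero_mul, Finset.sum_const_zero, add_zero, sum_exc M L hC hab hidx, if_neg hk] at this
      rw [this]; push_cast; ring
  -- exceptional characters
  have hE : ∀ μ : {η : Cfsg.IrrCharacter M // ¬ CharExt.KTriv L η}, ∃ (a : ℕ) (δ : ℤ), 0 ≤ (a : ℤ) + δ ∧
      (f μ : G → ℂ) 1 = a * m + δ + 5 * ε ∧
      ∀ k : L, k ≠ 1 → (f μ : G → ℂ) ((k : M) : G) = δ + ε * (μ.1 : M → ℂ) k := by
    intro μ
    obtain ⟨η₁, hη₁⟩ : ∃ η₁, η₁ ≠ μ := Fintype.exists_ne_of_one_lt_card (by omega) μ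
    obtain ⟨a, ha⟩ := Char.isCharacter_classInner_nat
      (CharInd.isCharacter_res M (Char.isCharacter_of_irr (f μ).2)) η₁.1
    obtain ⟨B, hB⟩ := res_expand M L (f μ) a (fun η => if η = μ then (ε : ℂ) else 0) (fun η => by
      have := hdiff (f μ) η η₁
      rw [if_neg (fun h => hη₁ (hinj h).symm), sub_zero, sub_eq_iff_eq_add, ha] at this
      rw [this, add_comm]
      by_cases h : η = μ
      · simp [h]
      · simp [h, show f μ ≠ f η from fun e => h (hinj e).symm])
    refine ⟨a, (B : ℤ) - a, by omega, ?_, fun k hk => ?_⟩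
    · have := hB 1
      simp only [ite_mul, zero_mul, Finset.sum_ite_eq', Finset.mem_univ, if_true,
        OneMemClass.coe_one, hexc, hsum1] at this
      rw [this]; push_cast; ring
    · have := hB k
      simp only [ite_mul, zero_mul, Finset.sum_ite_eq', Finset.mem_univ, if_true,
        sum_exc M L hC hab hidx, if_neg hk] at this
      rw [this]; push_cast; ring
  choose! aN δN hδN0 hN1 hNk using hNE
  choose aE δE hδE0 hE1 hEk using hE
  let NE : Finset (Cfsg.IrrCharacter G) := Finset.univ.filter (fun θ => ∀ η, θ ≠ f η)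
  have hsplit : ∀ F : Cfsg.IrrCharacter G → ℂ, ∑ θ, F θ = ∑ θ ∈ NE, F θ + ∑ η, F (f η) := by
    intro F
    rw [← Finset.sum_filter_add_sum_filter_not Finset.univ (fun θ => ∀ η, θ ≠ f η)]
    congr 1
    rw [← Finset.sum_image (f := F) (g := f) (fun x _ y _ h => hinj h)]
    refine Finset.sum_congr ?_ (fun _ _ => rfl)
    ext θ
    simp [eq_comm]
  -- second orthogonality, averaged over the torus
  have hμsum : ∀ μ : {η : Cfsg.IrrCharacter M // ¬ CharExt.KTriv L η},
      ∑ k ∈ Finset.univ.erase (1 : L), (μ.1 : M → ℂ) k = -5 := by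
    intro μ
    rw [Finset.sum_erase_eq_sub (Finset.mem_univ _), CharExt.sum_kernel_eq_zero L hC μ.2,
      OneMemClass.coe_one, hexc]
    ring
  have hμsq : ∀ μ : {η : Cfsg.IrrCharacter M // ¬ CharExt.KTriv L η},
      ∑ k ∈ Finset.univ.erase (1 : L), (μ.1 : M → ℂ) k * conj ((μ.1 : M → ℂ) k) = 5 * m - 25 := by
    intro μ
    rw [Finset.sum_erase_eq_sub (Finset.mem_univ _), CharExt.sum_kernel_mul_conj L hC μ.2 (μ.1 : M → ℂ),
      Char.classInner_irr_self μ.1.2, OneMemClass.coe_one, hexc, ← Subgroup.card_mul_index L, hidx,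
      ← hmdef, map_ofNat]
    push_cast
    ring
  have hcardk : ((Finset.univ.erase (1 : L)).card : ℂ) = (m : ℂ) - 1 := by
    rw [Finset.card_erase_of_mem (Finset.mem_univ _), Finset.card_univ, ← Nat.card_eq_fintype_card,
      ← hmdef, Nat.cast_sub (by omega)]
    simp
  have horth : ((m : ℤ) - 1) * ∑ θ ∈ NE, δN θ ^ 2 +
      ∑ μ, (((m : ℤ) - 1) * δE μ ^ 2 - 10 * ε * δE μ + (5 * m - 25)) = ((m : ℤ) - 1) * m := by
    have hk : ∀ k ∈ Finset.univ.erase (1 : L),
        ∑ θ : Cfsg.IrrCharacter G, (θ : G → ℂ) ((k : M) : G) * conj ((θ : G → ℂ) ((k : M) : G)) =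
          (m : ℂ) := by
      intro k hk
      rw [Char.sum_irr_mul_conj, if_pos (IsConj.refl _),
        hCG k k.2 (fun e => (Finset.ne_of_mem_erase hk) (Subtype.ext e))]
    have htot := Finset.sum_congr rfl hk
    rw [Finset.sum_comm, hsplit, Finset.sum_const, nsmul_eq_mul, hcardk] at htot
    apply @Int.cast_injective ℂ
    push_cast
    rw [← htot, Finset.mul_sum]
    congr 1
    · refine Finset.sum_congr rfl fun θ hθ => ?_
      rw [Finset.sum_congr rfl (fun k hk => by
        rw [hNk θ (Finset.mem_filter.mp hθ).2 k (Finset.ne_of_mem_erase hk), map_intCast]),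
        Finset.sum_const, nsmul_eq_mul, hcardk]
      ring
    · refine Finset.sum_congr rfl fun μ _ => ?_
      rw [Finset.sum_congr rfl (fun k hk => by
        rw [hEk μ k (Finset.ne_of_mem_erase hk), map_add, map_mul, map_intCast, map_intCast,
          show ((δE μ : ℂ) + ε * (μ.1 : M → ℂ) k) * ((δE μ : ℂ) + ε * conj ((μ.1 : M → ℂ) k)) =
            (δE μ : ℂ) ^ 2 + (δE μ * ε : ℂ) * (μ.1 : M → ℂ) k +
              (δE μ * ε : ℂ) * conj ((μ.1 : M → ℂ) k) +
              ((ε : ℂ) * ε) * ((μ.1 : M → ℂ) k * conj ((μ.1 : M → ℂ) k)) by ring]),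
        Finset.sum_add_distrib, Finset.sum_add_distrib, Finset.sum_add_distrib, Finset.sum_const,
        nsmul_eq_mul, hcardk, ← Finset.mul_sum, ← Finset.mul_sum, ← Finset.mul_sum, hμsum, hμsq,
        ← map_sum, hμsum, map_neg, map_ofNat]
      rcases hε with h | h <;> subst h <;> push_cast <;> ring
  -- the principal character
  set one := Char.trivialIrr G with hone
  have hone_NE : one ∈ NE := by
    refine Finset.mem_filter.mpr ⟨Finset.mem_univ _, fun μ h => ?_⟩
    have hk : ∀ k ∈ Finset.univ.erase (1 : L), (1 : ℂ) = δE μ + ε * (μ.1 : M → ℂ) k := fun k hk => by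
      rw [← hEk μ k (Finset.ne_of_mem_erase hk), ← h]; rfl
    have h2 := Finset.sum_congr rfl hk
    rw [Finset.sum_add_distrib, ← Finset.mul_sum, hμsum, Finset.sum_const, Finset.sum_const,
      nsmul_eq_mul, nsmul_eq_mul, hcardk] at h2
    have h3 : ((m : ℤ) - 1) * (1 - δE μ) = -5 * ε := by
      apply @Int.cast_injective ℂ
      push_cast
      linear_combination h2
    have hm1 : (36 : ℤ) ≤ (m : ℤ) - 1 := by omega
    rcases eq_or_ne (1 - δE μ) 0 with h0 | h0
    · rw [h0] at h3; rcases hε with h' | h' <;> subst h' <;> omega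
    · rcases lt_or_gt_of_ne h0 with hlt | hgt <;> rcases hε with h' | h' <;> subst h' <;> nlinarith
  have hone_δ : δN one = 1 := by
    obtain ⟨k, hk⟩ : ∃ k : L, k ≠ 1 := by
      haveI : Nontrivial L := Finite.one_lt_card_iff_nontrivial.mp (by omega)
      exact exists_ne 1
    have := hNk one (Finset.mem_filter.mp hone_NE).2 k hk
    have h1 : ((δN one : ℤ) : ℂ) = ((1 : ℤ) : ℂ) := by rw [← this]; simp [hone, Char.trivialIrr]
    exact_mod_cast h1
  -- the values of the exceptional characters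
  have hbr : ∀ μ, ((m : ℤ) - 11) * δE μ ^ 2 + (5 * m - 25) ≤
      ((m : ℤ) - 1) * δE μ ^ 2 - 10 * ε * δE μ + (5 * m - 25) := fun μ => by
    have : δE μ * ε ≤ δE μ ^ 2 := by
      rcases hε with h | h <;> subst h <;> rcases le_or_gt (δE μ) 0 with h' | h' <;> nlinarith
    nlinarith
  have ht5 : (t : ℤ) * 5 = (m : ℤ) - 1 := by omega
  have hsumE : ((m : ℤ) - 1) * (∑ θ ∈ NE.erase one, δN θ ^ 2) +
      ((m : ℤ) - 11) * ∑ μ, δE μ ^ 2 ≤ 4 * ((m : ℤ) - 1) := by
    have h1 : ((m : ℤ) - 11) * ∑ μ, δE μ ^ 2 + (t : ℤ) * (5 * m - 25) ≤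
        ∑ μ, (((m : ℤ) - 1) * δE μ ^ 2 - 10 * ε * δE μ + (5 * m - 25)) := by
      refine le_of_eq_of_le ?_ (Finset.sum_le_sum fun μ _ => hbr μ)
      rw [Finset.sum_add_distrib, Finset.mul_sum, Finset.sum_const, Finset.card_univ, ← htdef,
        nsmul_eq_mul]
    rw [← Finset.add_sum_erase _ _ hone_NE, hone_δ] at horth
    nlinarith
  have hδE : ∀ μ, δE μ = 0 := by
    have hsmall : ∀ μ, δE μ ^ 2 ≤ 4 := fun μ => by
      have h1 : δE μ ^ 2 ≤ ∑ μ, δE μ ^ 2 :=
        Finset.single_le_sum (f := fun μ => δE μ ^ 2) (fun _ _ => sq_nonneg _) (Finset.mem_univ μ)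
      have h2 : 0 ≤ ((m : ℤ) - 1) * ∑ θ ∈ NE.erase one, δN θ ^ 2 :=
        mul_nonneg (by omega) (Finset.sum_nonneg fun _ _ => sq_nonneg _)
      have h3 : ((m : ℤ) - 11) * δE μ ^ 2 ≤ 4 * ((m : ℤ) - 1) := by nlinarith
      have hlt : δE μ ^ 2 < 9 := by
        by_contra h9
        nlinarith
      have : -2 ≤ δE μ ∧ δE μ ≤ 2 := ⟨by nlinarith, by nlinarith⟩
      nlinarith
    have hcongr : ∀ μ ν, δE μ = δE ν := fun μ ν => by
      have h0 := congrFun (hf μ ν) 1
      rw [CharInd.indFun_one_apply] at h0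
      simp only [Pi.sub_apply, Pi.smul_apply, smul_eq_mul, hexc, hE1, sub_self, mul_zero] at h0
      have h1 : (aE μ : ℤ) * m + δE μ = (aE ν : ℤ) * m + δE ν := by
        apply @Int.cast_injective ℂ
        push_cast
        rcases hε with h | h <;> subst h <;> push_cast at h0
        · linear_combination -h0
        · linear_combination h0
      have h2 : (m : ℤ) ∣ δE μ - δE ν := ⟨(aE ν : ℤ) - aE μ, by linarith⟩
      by_contra hne
      have h3 := Int.le_of_dvd (abs_pos.mpr (sub_ne_zero.mpr hne)) ((dvd_abs _ _).mpr h2)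
      have hx : ∀ x : ℤ, x ^ 2 ≤ 4 → |x| ≤ 2 := fun x hx => abs_le.mpr ⟨by nlinarith, by nlinarith⟩
      have := abs_sub (δE μ) (δE ν)
      have := hx _ (hsmall μ)
      have := hx _ (hsmall ν)
      omega
    intro μ
    by_contra hne
    have hall : (t : ℤ) ≤ ∑ ν, δE ν ^ 2 := by
      have : ∑ _ν : {η : Cfsg.IrrCharacter M // ¬ CharExt.KTriv L η}, (1 : ℤ) ≤ ∑ ν, δE ν ^ 2 :=
        Finset.sum_le_sum fun ν _ => by
          rw [hcongr ν μ]; exact sq_pos_of_ne_zero hne
      simpa [← htdef] using this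
    have h2 : 0 ≤ ((m : ℤ) - 1) * ∑ θ ∈ NE.erase one, δN θ ^ 2 :=
      mul_nonneg (by omega) (Finset.sum_nonneg fun _ _ => sq_nonneg _)
    nlinarith
  have hsum4 : ∑ θ ∈ NE.erase one, δN θ ^ 2 = 4 := by
    rw [← Finset.add_sum_erase _ _ hone_NE, hone_δ] at horth
    simp only [hδE, zero_pow two_ne_zero, mul_zero, sub_zero, zero_add, Finset.sum_const,
      Finset.card_univ, ← htdef, nsmul_eq_mul] at horth
    have h : ((m : ℤ) - 1) * (∑ θ ∈ NE.erase one, δN θ ^ 2 - 4) = 0 := by nlinarith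
    rcases mul_eq_zero.mp h with h | h <;> omega
  have hδ2 : ∀ θ ∈ NE.erase one, -2 ≤ δN θ ∧ δN θ ≤ 2 := fun θ hθ => by
    have : δN θ ^ 2 ≤ 4 := hsum4 ▸
      Finset.single_le_sum (f := fun θ => δN θ ^ 2) (fun _ _ => sq_nonneg _) hθ
    constructor <;> nlinarith
  -- small non-exceptional characters
  have haN : ∀ θ ∈ NE.erase one, 1 ≤ aN θ := by
    intro θ hθ
    by_contra h0
    have hθNE := (Finset.mem_filter.mp (Finset.mem_of_mem_erase hθ)).2
    refine Finset.ne_of_mem_erase hθ (Subtype.ext (eq_one_of_ktriv M L hgen fun k => ?_))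
    by_cases hk : k = 1
    · simp [hk]
    · rw [hNk θ hθNE k hk, hN1 θ hθNE, show aN θ = 0 by omega]; simp
  -- the exceptional degree
  obtain ⟨e, he0, he⟩ := Char.irr_one_pos (f η₀).2
  have he' : (e : ℤ) = aE η₀ * m + 5 * ε := by
    apply @Int.cast_injective ℂ
    push_cast
    rw [← he, hE1, hδE]; push_cast; ring
  have haE : 1 ≤ aE η₀ := by
    by_contra h0
    have hε1 : ε = 1 := by
      rcases hε with h | h
      · exact h
      · rw [h, show aE η₀ = 0 by omega] at he'; omega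
    subst hε1
    have hξ : ∀ k : L, (f η₀ : G → ℂ) ((k : M) : G) = (η₀.1 : M → ℂ) k := by
      intro k
      by_cases hk : k = 1
      · subst hk
        simp only [OneMemClass.coe_one, hE1, hδE, hexc, show aE η₀ = 0 by omega]
        norm_num
      · rw [hEk η₀ k hk, hδE]; simp
    have hχ : Cfsg.IsCharacter G (fun g => (f η₀ : G → ℂ) g * conj ((f η₀ : G → ℂ) g)) :=
      Char.isCharacter_mul (Char.isCharacter_of_irr (f η₀).2)
        (Char.isCharacter_conjFun (Char.isCharacter_of_irr (f η₀).2))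
    obtain ⟨c, hc, hc'⟩ := Char.isCharacter_exists_coeff hχ
    choose d hd0 hd using fun ψ : Cfsg.IrrCharacter G => Char.irr_one_pos ψ.2
    have hdeg : ∑ ψ, c ψ * d ψ = 25 := by
      have := congrFun hc 1
      simp only [Finset.sum_apply, Pi.smul_apply, nsmul_eq_mul, he, map_natCast, Pi.mul_apply,
        Pi.natCast_apply] at this
      simp only [hd] at this
      have h25 : e = 5 := by rw [show aE η₀ = 0 by omega] at he'; omega
      subst h25
      have h' : ((∑ ψ, c ψ * d ψ : ℕ) : ℂ) = ((25 : ℕ) : ℂ) := by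
        push_cast; rw [← this]; norm_num
      exact_mod_cast h'
    have hvan : ∀ ψ, ψ ≠ one → (c ψ : ℂ) * ∑ k : L, (ψ : G → ℂ) ((k : M) : G) = 0 := by
      intro ψ hψ
      rcases Nat.eq_zero_or_pos (c ψ) with h | hpos
      · simp [h]
      have hle : d ψ ≤ 25 := by
        rw [← hdeg]
        exact le_trans (Nat.le_mul_of_pos_left _ hpos)
          (Finset.single_le_sum (f := fun ψ => c ψ * d ψ) (fun _ _ => Nat.zero_le _) (Finset.mem_univ ψ))
      by_cases hψE : ∀ η, ψ ≠ f η
      · exfalso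
        have hmem : ψ ∈ NE.erase one := Finset.mem_erase.mpr ⟨hψ, Finset.mem_filter.mpr ⟨Finset.mem_univ _, hψE⟩⟩
        have h1 := haN ψ hmem
        have h2 := hδ2 ψ hmem
        have h3 : (d ψ : ℤ) = aN ψ * m + δN ψ := by
          apply @Int.cast_injective ℂ
          push_cast
          rw [← hd, hN1 ψ hψE]
        have h4 : (aN ψ : ℤ) * m ≥ m := le_mul_of_one_le_left (by omega) (by exact_mod_cast h1)
        omega
      · push Not at hψE
        obtain ⟨μ, rfl⟩ := hψE
        have h3 : (d (f μ) : ℤ) = aE μ * m + 5 := by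
          apply @Int.cast_injective ℂ
          push_cast
          rw [← hd, hE1, hδE]; push_cast; ring
        have ha0 : aE μ = 0 := by
          by_contra h
          have h4 : (aE μ : ℤ) * m ≥ m :=
            le_mul_of_one_le_left (by omega) (by exact_mod_cast Nat.pos_of_ne_zero h)
          omega
        rw [← Finset.add_sum_erase _ _ (Finset.mem_univ (1 : L)), OneMemClass.coe_one,
          OneMemClass.coe_one, hE1, hδE, ha0,
          Finset.sum_congr rfl (fun k hk => by rw [hEk μ k (Finset.ne_of_mem_erase hk), hδE])]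
        simp [hμsum]
    have hcone : c one = 1 := by
      have := hc' one
      have h2 : Cfsg.classInner (fun g => (f η₀ : G → ℂ) g * conj ((f η₀ : G → ℂ) g))
          (one : G → ℂ) = Cfsg.classInner (f η₀ : G → ℂ) (f η₀ : G → ℂ) := by
        simp [Cfsg.classInner, hone, Char.trivialIrr]
      rw [h2, Char.classInner_irr_self (f η₀).2] at this
      exact_mod_cast this.symm
    have hsumL : ∑ k : L, (η₀.1 : M → ℂ) k * conj ((η₀.1 : M → ℂ) k) = (m : ℂ) := by
      have hexp : ∀ k : L, (η₀.1 : M → ℂ) (k : M) * conj ((η₀.1 : M → ℂ) (k : M)) =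
          ∑ ψ : Cfsg.IrrCharacter G, (c ψ : ℂ) * (ψ : G → ℂ) ((k : M) : G) := fun k => by
        rw [← hξ k]
        simpa [Finset.sum_apply, nsmul_eq_mul] using congrFun hc ((k : M) : G)
      rw [Finset.sum_congr rfl (fun k _ => hexp k), Finset.sum_comm, Finset.sum_eq_single one]
      · rw [hcone]; simp [hone, Char.trivialIrr, hmdef, Nat.card_eq_fintype_card]
      · intro ψ _ hψ
        rw [← Finset.mul_sum]; exact hvan ψ hψ
      · simp
    rw [CharExt.sum_kernel_mul_conj L hC η₀.2 (η₀.1 : M → ℂ), Char.classInner_irr_self η₀.1.2,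
      mul_one, ← Subgroup.card_mul_index L, hidx, ← hmdef] at hsumL
    push_cast at hsumL
    have : (m : ℂ) * 4 = 0 := by linear_combination hsumL
    simp at this
    omega
  -- squares of degrees
  have hsq : ∀ (θ : Cfsg.IrrCharacter G) (n : ℕ), (θ : G → ℂ) 1 = n → n ^ 2 ≤ Nat.card G := by
    intro θ n hn
    choose d hd0 hd using fun ψ : Cfsg.IrrCharacter G => Char.irr_one_pos ψ.2
    have h := Char.sum_irr_degree_sq (G := G)
    simp only [hd] at h
    have h' : ∑ ψ, d ψ ^ 2 = Nat.card G := by exact_mod_cast h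
    rw [hd] at hn
    rw [← h', ← Nat.cast_injective hn]
    exact Finset.single_le_sum (f := fun ψ => d ψ ^ 2) (fun _ _ => Nat.zero_le _) (Finset.mem_univ θ)
  choose d hd0 hd using fun ψ : Cfsg.IrrCharacter G => Char.irr_one_pos ψ.2
  have hdvd : ∀ ψ : Cfsg.IrrCharacter G, d ψ ∣ Nat.card G := fun ψ => by
    obtain ⟨n, -, hn, hdiv⟩ := Char.irr_degree_dvd_card ψ.2
    rw [hd] at hn
    rwa [Nat.cast_injective hn]
  refine ⟨((NE.erase one).filter (fun θ => δN θ ≠ 0)).val.map (fun θ => (δN θ, d θ)), ε, e, ?_, hε,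
    ?_, ?_, ?_, ?_, hsq _ _ he, ?_⟩
  · rw [Multiset.map_map]
    rw [← hsum4]
    exact Finset.sum_subset (Finset.filter_subset _ _) (fun θ h1 h2 => by
      have : δN θ = 0 := by simpa [h1] using h2
      simp [this])
  · -- column orthogonality against the identity
    rw [Multiset.map_map]
    change 1 + ∑ θ ∈ (NE.erase one).filter (fun θ => δN θ ≠ 0), δN θ * (d θ : ℤ) = ε * e
    rw [Finset.sum_filter_of_ne (p := fun θ => δN θ ≠ 0) (fun θ _ h h0 => h (by simp [h0]))]
    obtain ⟨k, hk⟩ : ∃ k : L, k ≠ 1 := by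
      haveI : Nontrivial L := Finite.one_lt_card_iff_nontrivial.mp (by omega)
      exact exists_ne 1
    have hkG : ((k : M) : G) ≠ 1 := fun h => hk (Subtype.ext (Subtype.ext h))
    have h := Char.sum_irr_degree_mul (G := G) ((k : M) : G)
    rw [if_neg hkG, hsplit] at h
    have he_all : ∀ μ, (f μ : G → ℂ) 1 = e := fun μ => by
      have h0 := congrFun (hf μ η₀) 1
      rw [CharInd.indFun_one_apply] at h0
      simp only [Pi.sub_apply, Pi.smul_apply, smul_eq_mul, hexc, sub_self, mul_zero, he] at h0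
      rcases hε with h | h <;> subst h <;> push_cast at h0 <;>
        first | linear_combination h0 | linear_combination -h0
    have hsE : ∑ μ : {η : Cfsg.IrrCharacter M // ¬ CharExt.KTriv L η},
        (f μ : G → ℂ) 1 * (f μ : G → ℂ) ((k : M) : G) = -((ε : ℂ) * e) := by
      have hterm : ∀ μ : {η : Cfsg.IrrCharacter M // ¬ CharExt.KTriv L η},
          (f μ : G → ℂ) 1 * (f μ : G → ℂ) ((k : M) : G) = ((e : ℂ) * ε) * (μ.1 : M → ℂ) (k : M) :=
        fun μ => by rw [he_all μ, hEk μ k hk, hδE]; push_cast; ring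
      rw [Finset.sum_congr rfl (fun μ _ => hterm μ), ← Finset.mul_sum, sum_exc M L hC hab hidx,
        if_neg hk]
      ring
    have hsN : ∑ θ ∈ NE.erase one, (θ : G → ℂ) 1 * (θ : G → ℂ) ((k : M) : G) =
        ∑ θ ∈ NE.erase one, (δN θ : ℂ) * (d θ : ℂ) :=
      Finset.sum_congr rfl fun θ hθ => by
        rw [hNk θ (Finset.mem_filter.mp (Finset.mem_of_mem_erase hθ)).2 k hk, hd]; ring
    rw [hsE, ← Finset.add_sum_erase _ _ hone_NE, hsN] at h
    simp only [hone, Char.trivialIrr, mul_one] at h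
    apply @Int.cast_injective ℂ
    push_cast
    simp only [hone, Char.trivialIrr]
    linear_combination h
  · have := hdvd (f η₀)
    rwa [Nat.cast_injective ((hd _).symm.trans he)] at this
  · exact ⟨aE η₀, by linarith⟩
  · have h4 : (aE η₀ : ℤ) * m ≥ m := le_mul_of_one_le_left (by omega) (by exact_mod_cast haE)
    omega
  · intro x hx
    obtain ⟨θ, hθ, rfl⟩ := Multiset.mem_map.mp hx
    obtain ⟨hθ, hne⟩ := Finset.mem_filter.mp (Finset.mem_val.mp hθ)
    have hθNE := (Finset.mem_filter.mp (Finset.mem_of_mem_erase hθ)).2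
    have h3 : (d θ : ℤ) = aN θ * m + δN θ := by
      apply @Int.cast_injective ℂ
      push_cast
      rw [← hd, hN1 θ hθNE]
    have h1 := haN θ hθ
    have h2 := hδ2 θ hθ
    refine ⟨hne, hdvd θ, ⟨aN θ, by linarith⟩, ?_, hsq _ _ (hd θ)⟩
    have h4 : (aN θ : ℤ) * m ≥ m := le_mul_of_one_le_left (by omega) (by exact_mod_cast h1)
    omega

end Cfsg.Agent.MaxSub.SingerSU5
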