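import Cfsg.Agent.MaxSub.SingerSU5.Chars
import Cfsg.Agent.MaxSub.SingerGroup.Hall

/-!
# The abstract configuration of a Singer overgroup in dimension five

A cyclic subgroup `A`, the centraliser of each of its non-trivial elements and of index five in its
normaliser, gives the degree system as soon as it lies in no proper normal subgroup; this holds if
the orders of the prime-power subgroups it could act on freely are excluded.
-/

set_option autoImplicit false
set_option linter.style.haveILetI false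

namespace Cfsg.Agent.MaxSub.SingerSU5

universe u v

/-- An action with one fixed point, free elsewhere. -/
theorem card_mod_eq_one {A : Type*} {S : Type v} [Group A] [Finite A] [MulAction A S] [Finite S]
    (s₀ : S) (h₀ : ∀ a : A, a • s₀ = s₀) (hfree : ∀ s : S, s ≠ s₀ → ∀ a : A, a • s = s → a = 1)
    (hA : 1 < Nat.card A) : Nat.card S % Nat.card A = 1 := by
  classical
  let R : SubMulAction A S :=
    { carrier := {s | s ≠ s₀}
      smul_mem' := fun a s hs e => hs (smul_left_cancel a (e.trans (h₀ a).symm)) }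
  have hfree' : ∀ r : R, MulAction.stabilizer A r = ⊥ := fun r =>
    (Subgroup.eq_bot_iff_forall _).2 fun a ha => hfree r.1 r.2 a (congrArg Subtype.val ha)
  have hcard : Nat.card R = Nat.card (Quotient (MulAction.orbitRel A R)) * Nat.card A := by
    rw [← Nat.card_prod]
    exact Nat.card_congr (MulAction.selfEquivOrbitsQuotientProd' (φ := Quotient.out)
      Quotient.out_eq' hfree')
  have hS : Nat.card S = Nat.card {s : S // s = s₀} + Nat.card R := by
    rw [← Nat.card_sum]
    exact Nat.card_congr (Equiv.sumCompl fun s : S => s = s₀).symm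
  rw [hS, Nat.card_unique, hcard, Nat.add_mul_mod_self_right, Nat.mod_eq_of_lt hA]

variable {G : Type u} [Group G] [Finite G] {A : Subgroup G}

/-- Elements carrying a non-trivial element of `A` into `A` normalise `A`. -/
theorem mem_normalizer_of_conj (hab : ∀ a ∈ A, ∀ b ∈ A, a * b = b * a)
    (hC : ∀ a ∈ A, a ≠ 1 → Subgroup.centralizer ({a} : Set G) ≤ A) {g x : G} (hx : x ∈ A)
    (hx1 : x ≠ 1) (hgx : g * x * g⁻¹ ∈ A) : g ∈ Subgroup.normalizer (A : Set G) := by
  have key : ∀ b ∈ A, g * b * g⁻¹ ∈ A := by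
    intro b hb
    refine hC _ hgx (fun h => hx1 (conj_eq_one_iff.mp h)) (Subgroup.mem_centralizer_singleton_iff.2 ?_)
    calc g * b * g⁻¹ * (g * x * g⁻¹) = g * (b * x) * g⁻¹ := by group
      _ = g * (x * b) * g⁻¹ := by rw [hab b hb x hx]
      _ = g * x * g⁻¹ * (g * b * g⁻¹) := by group
  let F : A → A := fun b => ⟨g * b * g⁻¹, key b b.2⟩
  have hsurj : Function.Surjective F := Finite.surjective_of_injective fun b c hbc =>
    Subtype.ext (mul_left_cancel (mul_right_cancel (congrArg Subtype.val hbc)))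
  refine Subgroup.mem_normalizer_iff.mpr fun b => ⟨key b, fun hb => ?_⟩
  obtain ⟨c, hc⟩ := hsurj ⟨_, hb⟩
  have : g * (c : G) * g⁻¹ = g * b * g⁻¹ := congrArg Subtype.val hc
  exact (mul_left_cancel (mul_right_cancel this)) ▸ c.2

/-- `A` is a Hall subgroup. -/
theorem coprime_index (hab : ∀ a ∈ A, ∀ b ∈ A, a * b = b * a)
    (hC : ∀ a ∈ A, a ≠ 1 → Subgroup.centralizer ({a} : Set G) ≤ A) {e : ℕ}
    (hidx : A.relIndex (Subgroup.normalizer (A : Set G)) = e) (hcop : (Nat.card A).Coprime e) :
    (Nat.card A).Coprime A.index :=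
  SingerGroup.coprime_index_of_cc hab
    (fun x hx hx1 _ hg => hC x hx hx1 (Subgroup.mem_centralizer_singleton_iff.2 hg))
    (hidx ▸ hcop)

/-- The order of a group with a self-centralising subgroup. -/
theorem card_eq_of_cc (A : Subgroup G) (hab : ∀ a ∈ A, ∀ b ∈ A, a * b = b * a)
    (hC : ∀ a ∈ A, a ≠ 1 → Subgroup.centralizer ({a} : Set G) ≤ A) (e m : ℕ)
    (hA : Nat.card A = m) (hidx : A.relIndex (Subgroup.normalizer (A : Set G)) = e)
    (hcop : m.Coprime e) (hm : 1 < m) : ∃ T, Nat.card G = e * m * T ∧ T % m = 1 := by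
  set N := Subgroup.normalizer (A : Set G) with hN
  have hAN : A ≤ N := Subgroup.le_normalizer
  refine ⟨N.index, ?_, ?_⟩
  · rw [← N.card_mul_index, ← hidx, ← hA, Subgroup.relIndex,
      ← Nat.card_congr (Subgroup.subgroupOfEquivOfLe hAN).toEquiv]
    congr 1
    rw [mul_comm, Subgroup.card_mul_index]
  have hmemA : ∀ x ∈ A, ∀ g : G, g⁻¹ * x * g ∈ N → g⁻¹ * x * g ∈ A := by
    intro x hx g hy
    haveI : (A.subgroupOf N).Normal := Subgroup.normal_in_normalizer
    have h1 : (QuotientGroup.mk (⟨_, hy⟩ : N) : N ⧸ A.subgroupOf N) ^ m = 1 := by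
      rw [← QuotientGroup.mk_pow, QuotientGroup.eq_one_iff, Subgroup.mem_subgroupOf]
      have : (g⁻¹ * x * g) ^ m = 1 := by
        rw [show g⁻¹ * x * g = g⁻¹ * x * g⁻¹⁻¹ by group, conj_pow,
          show x ^ m = 1 from hA ▸ congrArg Subtype.val (pow_card_eq_one' (x := (⟨x, hx⟩ : A)))]
        group
      show (((⟨_, hy⟩ : N) ^ m : N) : G) ∈ A
      rw [Subgroup.coe_pow, this]
      exact one_mem A
    have h2 : (QuotientGroup.mk (⟨_, hy⟩ : N) : N ⧸ A.subgroupOf N) ^ e = 1 := by
      rw [← hidx, Subgroup.relIndex, Subgroup.index_eq_card]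
      exact pow_card_eq_one'
    have h3 := pow_gcd_eq_one.2 ⟨h1, h2⟩
    rw [hcop.gcd_eq_one, pow_one, QuotientGroup.eq_one_iff] at h3
    exact h3
  rw [Subgroup.index_eq_card, ← hA]
  refine card_mod_eq_one (A := A) ((1 : G) : G ⧸ N) (fun a => ?_) ?_ (hA.symm ▸ hm)
  · refine QuotientGroup.eq.2 ?_
    simpa using N.inv_mem (hAN a.2)
  intro s hs a ha
  induction s using QuotientGroup.induction_on with
  | H g =>
    by_contra ha1
    apply hs
    have hy : g⁻¹ * (a : G) * g ∈ N := by
      have := N.inv_mem (QuotientGroup.eq.1 ha)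
      simpa [mul_assoc] using this
    have hyA := hmemA a a.2 g hy
    refine QuotientGroup.eq.2 ?_
    rw [mul_one]
    refine N.inv_mem (mem_normalizer_of_conj hab hC hyA (fun h => ha1 (Subtype.ext ?_)) ?_)
    · calc (a : G) = g * (g⁻¹ * (a : G) * g) * g⁻¹ := by group
        _ = 1 := by rw [h]; group
    · convert a.2 using 1
      group

/-- A self-normalising self-centralising subgroup misses the commutator subgroup. -/
theorem commutator_inf_eq_bot (hab : ∀ a ∈ A, ∀ b ∈ A, a * b = b * a)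
    (hC : ∀ a ∈ A, a ≠ 1 → Subgroup.centralizer ({a} : Set G) ≤ A)
    (hN : Subgroup.normalizer (A : Set G) = A) : commutator G ⊓ A = ⊥ := by
  have hhall := coprime_index hab hC (e := 1) (by rw [hN, Subgroup.relIndex_self])
    (Nat.coprime_one_right _)
  have hr : ∀ r : ℕ, r.Prime → r ∣ Nat.card A → ¬ r ∣ Nat.card (commutator G) := by
    intro r hr hrA
    haveI := Fact.mk hr
    obtain ⟨R⟩ : Nonempty (Sylow r A) := inferInstance
    have hri : ¬ r ∣ A.index := fun h =>
      hr.ne_one (Nat.dvd_one.mp (hhall ▸ Nat.dvd_gcd hrA h))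
    have hRc : Nat.card ((R : Subgroup A).map A.subtype) = r ^ (Nat.card G).factorization r := by
      rw [Subgroup.card_map_of_injective A.subtype_injective, Sylow.card_eq_multiplicity,
        ← A.card_mul_index, Nat.factorization_mul Nat.card_pos.ne' Subgroup.index_ne_zero_of_finite]
      simp [Nat.factorization_eq_zero_of_not_dvd hri]
    let P : Sylow r G := Sylow.ofCard _ hRc
    have hPA : (P : Subgroup G) ≤ A := by
      rw [Sylow.coe_ofCard]; exact Subgroup.map_subtype_le _
    obtain ⟨⟨x, hxP⟩, hx1⟩ := Subgroup.ne_bot_iff_exists_ne_one.mp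
      (P.ne_bot_of_dvd_card (hrA.trans (Subgroup.card_subgroup_dvd_card A)))
    have hP : Subgroup.normalizer ((P : Subgroup G) : Set G) ≤
        Subgroup.centralizer ((P : Subgroup G) : Set G) := by
      intro g hg
      have hgA : g ∈ A := hN ▸ mem_normalizer_of_conj hab hC (hPA hxP)
        (fun h => hx1 (Subtype.ext h)) (hPA ((Subgroup.mem_normalizer_iff.mp hg x).mp hxP))
      exact Subgroup.mem_centralizer_iff.mpr fun y hy => hab y (hPA hy) g hgA
    have hle : commutator G ≤ (MonoidHom.transferSylow P hP).ker := by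
      rw [commutator_def, Subgroup.commutator_le]
      intro g _ h _
      have hcom : ∀ y z : P, y * z = z * y := fun y z =>
        Subtype.ext (hab _ (hPA y.2) _ (hPA z.2))
      rw [MonoidHom.mem_ker, map_commutatorElement, commutatorElement_eq_one_iff_mul_comm]
      exact hcom _ _
    exact fun h => MonoidHom.not_dvd_card_ker_transferSylow P hP
      (h.trans (Subgroup.card_dvd_of_le hle))
  apply Subgroup.eq_bot_of_card_eq
  by_contra h1
  obtain ⟨r, hrp, hrd⟩ := Nat.exists_prime_and_dvd h1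
  exact hr r hrp (hrd.trans (Subgroup.card_dvd_of_le inf_le_right))
    (hrd.trans (Subgroup.card_dvd_of_le inf_le_left))

/-- A perfect group has no self-normalising self-centralising subgroup. -/
theorem false_of_selfNormalizing (A : Subgroup G) (hab : ∀ a ∈ A, ∀ b ∈ A, a * b = b * a)
    (hC : ∀ a ∈ A, a ≠ 1 → Subgroup.centralizer ({a} : Set G) ≤ A) (hm : 1 < Nat.card A)
    (hN : Subgroup.normalizer (A : Set G) = A) (hperf : commutator G = ⊤) : False := by
  have h := commutator_inf_eq_bot hab hC hN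
  rw [hperf, top_inf_eq] at h
  rw [h, Subgroup.card_bot] at hm
  exact lt_irrefl _ hm

/-- The configuration gives the degree system. -/
theorem degreeSystem_of_config {p m : ℕ} (A : Subgroup G) (hcyc : IsCyclic A)
    (hA : Nat.card A = m) (hm : 36 < m) (hm5 : m.Coprime 5)
    (hC : ∀ a ∈ A, a ≠ 1 → Subgroup.centralizer ({a} : Set G) ≤ A)
    (hidx : A.relIndex (Subgroup.normalizer (A : Set G)) = 5) (hnn : ¬ A.Normal)
    (hNoP : ∀ Q : Subgroup G, IsPGroup p Q → A ≤ Subgroup.normalizer (Q : Set G) → Q = ⊥)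
    (hNoL : ∀ l a : ℕ, l.Prime → l ≠ p → l ^ a ∣ Nat.card G → l ^ a % m = 1 → a = 0) :
    DegreeSystem (Nat.card G) m := by
  classical
  obtain ⟨⟨a, ha⟩, hgena⟩ := hcyc.exists_generator
  have hAz : A = Subgroup.zpowers a := by
    refine le_antisymm (fun b hb => ?_) (Subgroup.zpowers_le.2 ha)
    obtain ⟨k, hk⟩ := hgena ⟨b, hb⟩
    exact ⟨k, congrArg Subtype.val hk⟩
  have hab : ∀ x ∈ A, ∀ y ∈ A, x * y = y * x := by
    intro x hx y hy
    rw [hAz] at hx hy
    obtain ⟨i, rfl⟩ := hx
    obtain ⟨j, rfl⟩ := hy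
    exact Commute.zpow_zpow_self a i j
  set N := Subgroup.normalizer (A : Set G) with hNdef
  have hAN : A ≤ N := Subgroup.le_normalizer
  have hhall := coprime_index hab hC (e := 5) hidx (hA.symm ▸ hm5)
  have hgen : ∀ T : Subgroup G, T.Normal → A ≤ T → T = ⊤ := by
    intro T hT hAT
    by_contra hTtop
    -- the Frattini argument
    obtain ⟨r, hr, hrA⟩ := Nat.exists_prime_and_dvd (show Nat.card A ≠ 1 by omega)
    haveI := Fact.mk hr
    obtain ⟨R⟩ : Nonempty (Sylow r A) := inferInstance
    have hri : ¬ r ∣ A.index := fun h => hr.ne_one (Nat.dvd_one.mp (hhall ▸ Nat.dvd_gcd hrA h))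
    have hRc : Nat.card ((R : Subgroup A).map A.subtype) = r ^ (Nat.card G).factorization r := by
      rw [Subgroup.card_map_of_injective A.subtype_injective, Sylow.card_eq_multiplicity,
        ← A.card_mul_index, Nat.factorization_mul Nat.card_pos.ne' Subgroup.index_ne_zero_of_finite]
      simp [Nat.factorization_eq_zero_of_not_dvd hri]
    let P : Sylow r G := Sylow.ofCard _ hRc
    have hPA : (P : Subgroup G) ≤ A := by
      rw [Sylow.coe_ofCard]; exact Subgroup.map_subtype_le _
    obtain ⟨⟨x, hxP⟩, hx1⟩ := Subgroup.ne_bot_iff_exists_ne_one.mp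
      (P.ne_bot_of_dvd_card (hrA.trans (Subgroup.card_subgroup_dvd_card A)))
    have hPN : Subgroup.normalizer ((P : Subgroup G) : Set G) ≤ N := fun g hg =>
      mem_normalizer_of_conj hab hC (hPA hxP) (fun h => hx1 (Subtype.ext h))
        (hPA ((Subgroup.mem_normalizer_iff.mp hg x).mp hxP))
    haveI := hT
    have hsup := Sylow.normalizer_sup_eq_top' P (hPA.trans hAT)
    have hNT : T ⊓ N = A := by
      have h5 := Subgroup.relIndex_mul_relIndex A (T ⊓ N) N (le_inf hAT hAN) inf_le_right
      rw [hidx] at h5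
      rcases (Nat.dvd_prime (by norm_num : Nat.Prime 5)).mp (Dvd.intro _ h5) with h | h
      · exact le_antisymm (Subgroup.relIndex_eq_one.1 h) (le_inf hAT hAN)
      · exfalso
        rw [h] at h5
        have h1 : (T ⊓ N).relIndex N = 1 := by omega
        have hle : N ≤ T := (Subgroup.relIndex_eq_one.1 h1).trans inf_le_left
        exact hTtop (top_le_iff.1 (hsup ▸ sup_le (hPN.trans hle) le_rfl))
    have hself : Subgroup.normalizer ((A.subgroupOf T : Subgroup T) : Set T) = A.subgroupOf T := by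
      refine le_antisymm (fun g hg => ?_) Subgroup.le_normalizer
      have hgN : (g : G) ∈ N := by
        obtain ⟨⟨b, hb⟩, hb1⟩ := Subgroup.ne_bot_iff_exists_ne_one.mp
          (show A ≠ ⊥ from fun h => by rw [h, Subgroup.card_bot] at hA; omega)
        have := (Subgroup.mem_normalizer_iff.mp hg ⟨b, hAT hb⟩).mp (Subgroup.mem_subgroupOf.2 hb)
        exact mem_normalizer_of_conj hab hC hb (fun h => hb1 (Subtype.ext h))
          (Subgroup.mem_subgroupOf.1 this)
      exact Subgroup.mem_subgroupOf.2 (hNT.le ⟨g.2, hgN⟩)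
    have hK := commutator_inf_eq_bot (A := A.subgroupOf T)
      (fun x hx y hy => Subtype.ext (hab _ hx _ hy))
      (fun x hx hx1 y hy => Subgroup.mem_subgroupOf.2 (hC x hx (fun h => hx1 (Subtype.ext h))
        (Subgroup.mem_centralizer_singleton_iff.2
          (congrArg Subtype.val (Subgroup.mem_centralizer_singleton_iff.1 hy))))) hself
    set K : Subgroup G := ⁅T, T⁆ with hKdef
    haveI hKn : K.Normal := Subgroup.commutator_normal T T
    have hKT : K = (commutator T).map T.subtype := by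
      rw [commutator_def, Subgroup.map_commutator]
      simp [hKdef, ← MonoidHom.range_eq_map]
    have hKA : ∀ k ∈ K, k ∈ A → k = 1 := by
      intro k hk hkA
      rw [hKT] at hk
      obtain ⟨u, hu, rfl⟩ := hk
      have : u ∈ commutator T ⊓ A.subgroupOf T := ⟨hu, Subgroup.mem_subgroupOf.2 hkA⟩
      rw [hK, Subgroup.mem_bot] at this
      rw [this]; rfl
    have hKne : K ≠ ⊥ := by
      intro hKbot
      obtain ⟨⟨b, hb⟩, hb1⟩ := Subgroup.ne_bot_iff_exists_ne_one.mp
        (show A ≠ ⊥ from fun h => by rw [h, Subgroup.card_bot] at hA; omega)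
      have hTA : T ≤ A := fun t ht => hC b hb (fun h => hb1 (Subtype.ext h))
        (Subgroup.mem_centralizer_singleton_iff.2 (commutatorElement_eq_one_iff_mul_comm.1 (by
          have := Subgroup.commutator_mem_commutator ht (hAT hb)
          rwa [← hKdef, hKbot, Subgroup.mem_bot] at this)))
      exact hnn ((le_antisymm hTA hAT) ▸ hT)
    -- fixed point freeness
    have ha1 : a ≠ 1 := fun h => by
      rw [hAz, h, Subgroup.zpowers_one_eq_bot, Subgroup.card_bot] at hA; omega
    have hfpf : ∀ k ∈ K, ∀ b ∈ A, b ≠ 1 → k * b = b * k → k = 1 := fun k hk b hb hb1 h =>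
      hKA k hk (hC b hb hb1 (Subgroup.mem_centralizer_singleton_iff.2 h))
    obtain ⟨l, hl, hlK⟩ := Nat.exists_prime_and_dvd (show Nat.card K ≠ 1 from fun h =>
      hKne ((Subgroup.card_eq_one).mp h))
    haveI := Fact.mk hl
    obtain ⟨Q₀⟩ : Nonempty (Sylow l K) := inferInstance
    let φ : K → K := fun x => ⟨x * (a * (x : G)⁻¹ * a⁻¹),
      K.mul_mem x.2 (hKn.conj_mem _ (K.inv_mem x.2) a)⟩
    have hφ : Function.Surjective φ := Finite.surjective_of_injective fun x y h => by
      have h' : (x : G) * (a * (x : G)⁻¹ * a⁻¹) = y * (a * (y : G)⁻¹ * a⁻¹) := congrArg Subtype.val h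
      have hc : ((y : G)⁻¹ * x) * a = a * ((y : G)⁻¹ * x) := by
        calc ((y : G)⁻¹ * x) * a = (y : G)⁻¹ * ((x : G) * (a * (x : G)⁻¹ * a⁻¹)) * a * x := by group
          _ = (y : G)⁻¹ * ((y : G) * (a * (y : G)⁻¹ * a⁻¹)) * a * x := by rw [h']
          _ = a * ((y : G)⁻¹ * x) := by group
      exact Subtype.ext (inv_mul_eq_one.1
        (hfpf _ (K.mul_mem (K.inv_mem y.2) x.2) a ha ha1 hc)).symm
    -- an invariant Sylow subgroup
    obtain ⟨k, hk⟩ := MulAction.exists_smul_eq K Q₀
      ((Q₀.mapSurjective (f := (MulAut.conjNormal a : MulAut K).toMonoidHom)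
        (MulEquiv.surjective _)))
    obtain ⟨x, hx⟩ := hφ k⁻¹
    set Q : Subgroup G := (((Q₀ : Subgroup K).map (MulAut.conj x⁻¹).toMonoidHom)).map K.subtype
      with hQdef
    have hxc : (x : G) * (a * (x : G)⁻¹ * a⁻¹) = (k : G)⁻¹ := congrArg Subtype.val hx
    have hQmem : ∀ q : G, q ∈ Q → a * q * a⁻¹ ∈ Q := by
      rintro _ ⟨_, ⟨q, hq, rfl⟩, rfl⟩
      have hq' : (MulAut.conjNormal a : MulAut K) q ∈ ((k • Q₀ : Sylow l K) : Subgroup K) := by
        rw [hk]; exact ⟨q, hq, rfl⟩
      rw [Sylow.coe_subgroup_smul] at hq'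
      obtain ⟨q', hq'Q, e⟩ := hq'
      refine ⟨_, ⟨q', hq'Q, rfl⟩, ?_⟩
      have e' : (k : G) * q' * (k : G)⁻¹ = a * q * a⁻¹ := congrArg Subtype.val e
      show (x : G)⁻¹ * q' * (x : G)⁻¹⁻¹ = a * ((x : G)⁻¹ * q * (x : G)⁻¹⁻¹) * a⁻¹
      rw [show (q' : G) = (k : G)⁻¹ * (a * q * a⁻¹) * k by rw [← e']; group,
        ← inv_inv (k : G), ← hxc]
      group
    have hAQ : A ≤ Subgroup.normalizer (Q : Set G) := by
      rw [hAz, Subgroup.zpowers_le]
      exact Subgroup.mem_normalizer_fintype hQmem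
    have hQc : Nat.card Q = Nat.card (Q₀ : Subgroup K) := by
      rw [hQdef, Subgroup.card_map_of_injective K.subtype_injective,
        Subgroup.card_map_of_injective (MulAut.conj x⁻¹).injective]
    obtain ⟨b, hb⟩ := IsPGroup.iff_card.1 Q₀.2
    by_cases hlp : l = p
    · subst hlp
      have h1 := hNoP Q (IsPGroup.of_card (n := b) (hQc.trans hb)) hAQ
      rw [h1, Subgroup.card_bot] at hQc
      exact Q₀.ne_bot_of_dvd_card hlK ((Subgroup.card_eq_one).mp hQc.symm)
    have hQK : Q ≤ K := Subgroup.map_subtype_le _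
    letI : MulAction A Q :=
      { smul := fun c q => ⟨c * q * (c : G)⁻¹, (Subgroup.mem_normalizer_iff.1 (hAQ c.2) _).1 q.2⟩
        one_smul := fun q => Subtype.ext (show (1 : G) * q * (1 : G)⁻¹ = q by group)
        mul_smul := fun c d q => Subtype.ext (show ((c : G) * d) * q * ((c : G) * d)⁻¹ =
          (c : G) * ((d : G) * q * (d : G)⁻¹) * (c : G)⁻¹ by group) }
    have hmod : Nat.card Q % Nat.card A = 1 := by
      refine card_mod_eq_one (A := A) (1 : Q)
        (fun c => Subtype.ext (show (c : G) * 1 * (c : G)⁻¹ = 1 by group)) (fun q hq c hc => ?_)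
        (by omega)
      by_contra hc1
      have hc' : (c : G) * q * (c : G)⁻¹ = q := congrArg Subtype.val hc
      exact hq (Subtype.ext (hfpf q (hQK q.2) c c.2 (fun h => hc1 (Subtype.ext h))
        (mul_inv_eq_iff_eq_mul.1 hc').symm))
    rw [hQc, hb, hA] at hmod
    have h0 := hNoL l b hl hlp (hb ▸ hQc ▸ Subgroup.card_subgroup_dvd_card Q) hmod
    rw [h0, pow_zero] at hb
    exact Q₀.ne_bot_of_dvd_card hlK ((Subgroup.card_eq_one).mp hb)
  haveI := Fintype.ofFinite G
  haveI := Fintype.ofFinite N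
  haveI : (A.subgroupOf N).Normal := Subgroup.normal_in_normalizer
  have hLc : Nat.card (A.subgroupOf N) = m :=
    (Nat.card_congr (Subgroup.subgroupOfEquivOfLe hAN).toEquiv).trans hA
  rw [← hLc]
  refine degreeSystem N (A.subgroupOf N) (fun g hg k hk k' hk' e => ?_)
    (fun k hk hk1 y hy => ?_) (fun x hx y hy => Subtype.ext (hab _ hx _ hy)) hidx
    (fun k hk hk1 => ?_) (fun T hT hkT => hgen T hT fun b hb => hkT ⟨b, hAN hb⟩ hb) (by omega)
  · by_contra hk1
    exact hg (mem_normalizer_of_conj hab hC hk (fun h => hk1 (Subtype.ext h)) (e ▸ hk'))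
  · exact hC k hk (fun h => hk1 (Subtype.ext h)) (Subgroup.mem_centralizer_singleton_iff.2
      (congrArg Subtype.val (Subgroup.mem_centralizer_singleton_iff.1 hy)))
  · have : Subgroup.centralizer ({((k : N) : G)} : Set G) = A :=
      le_antisymm (hC k hk (fun h => hk1 (Subtype.ext h)))
        (fun y hy => Subgroup.mem_centralizer_singleton_iff.2 (hab y hy _ hk))
    rw [this, hA, hLc]

end Cfsg.Agent.MaxSub.SingerSU5
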