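import Cfsg.Agent.MaxSub.SingerSU5.Quot
import Cfsg.Agent.MaxSub.SingerSU5.Config
import Cfsg.Agent.MaxSub.SingerSU5.Ambient
import Cfsg.Agent.MaxSub.SingerSU5.Arith

/-!
# The Singer normaliser is maximal in the special unitary group of dimension five

An overgroup of the normaliser, divided by its scalars, has the image of the torus as a cyclic
self-centralising subgroup of index five in its normaliser; the degree system that this produces
has no solution.
-/

set_option autoImplicit false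
set_option linter.unusedSectionVars false
set_option linter.style.haveILetI false

namespace Cfsg.Agent.MaxSub.SingerSU5

open Matrix Module Cfsg.Geo
open Cfsg.Agent.Classical.U
open scoped MatrixGroups Matrix

namespace Tor

variable {F : Type*} [Field F] [Fintype F] {q : ℕ} {K : Type*} [Field K] [Algebra F K]
  {ψ : K →ₐ[F] Matrix (Fin 5) (Fin 5) F}
  {K₀ : Subalgebra F (Matrix (Fin 5) (Fin 5) F)} (T : Tor q K ψ K₀)
  {X : Subgroup (GL (Fin 5) F)} (hX : T.Nor ≤ X)
  (hXS : X ≤ Cfsg.GU 5 F q ⊓ specialLinear (Fin 5) F)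
  {m : ℕ} (hm : m * Nat.gcd 5 (q + 1) = m0 q)

include T

theorem d_pos : 0 < Nat.gcd 5 (q + 1) := Nat.gcd_pos_of_pos_left _ (by norm_num)

include hX in
theorem isCyclic_A : IsCyclic (T.A X) := by
  haveI := T.isCyclic_torus
  have hle : T.torus ≤ X := T.torus_le_nor.trans hX
  haveI : IsCyclic (T.torus.subgroupOf X) :=
    isCyclic_of_surjective (Subgroup.subgroupOfEquivOfLe hle).symm.toMonoidHom
      (Subgroup.subgroupOfEquivOfLe hle).symm.surjective
  exact isCyclic_of_surjective ((QuotientGroup.mk' (T.W X)).subgroupMap (T.torus.subgroupOf X))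
    (MonoidHom.subgroupMap_surjective _ _)

include hX in
theorem comm_A : ∀ a ∈ T.A X, ∀ b ∈ T.A X, a * b = b * a := by
  intro a ha b hb
  haveI := T.isCyclic_A hX
  obtain ⟨g, hg⟩ := IsCyclic.exists_generator (α := T.A X)
  obtain ⟨i, hi⟩ := hg ⟨a, ha⟩
  obtain ⟨j, hj⟩ := hg ⟨b, hb⟩
  have h1 : (g : ↥X ⧸ T.W X) ^ i = a := by simpa using congrArg Subtype.val hi
  have h2 : (g : ↥X ⧸ T.W X) ^ j = b := by simpa using congrArg Subtype.val hj
  rw [← h1, ← h2]
  exact Commute.zpow_zpow_self _ i j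

include hX hXS hm in
theorem card_A_eq : Nat.card (T.A X) = m :=
  Nat.eq_of_mul_eq_mul_right T.d_pos ((T.card_A hX hXS).trans hm.symm)

include hX hXS in
theorem card_overgroup :
    Nat.card (↥X ⧸ T.W X) * Nat.gcd 5 (q + 1) = Nat.card X := by
  rw [← T.card_W hXS hX]
  exact (Subgroup.card_eq_card_quotient_mul_card_subgroup _).symm

include hX hXS hm in
theorem relIndex_A {e : ℕ} (he : Nat.card T.Nor = e * m0 q) (hm0 : 0 < m) :
    (T.A X).relIndex (Subgroup.normalizer (T.A X : Set (↥X ⧸ T.W X))) = e := by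
  have h1 := T.card_normalizer_A hX hXS
  rw [he, ← hm, ← mul_assoc] at h1
  have h2 := Nat.eq_of_mul_eq_mul_right T.d_pos h1
  set N := Subgroup.normalizer (T.A X : Set (↥X ⧸ T.W X))
  have h3 := ((T.A X).subgroupOf N).card_mul_index
  rw [Nat.card_congr (Subgroup.subgroupOfEquivOfLe (Subgroup.le_normalizer)).toEquiv,
    T.card_A_eq hX hXS hm, h2, mul_comm e] at h3
  exact Nat.eq_of_mul_eq_mul_left hm0 h3

end Tor

/-- Clause (4) of the list for `SU_5(q)`: the normaliser of a field of degree five. -/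
theorem suGL_singer_maximal_five {F : Type*} [Field F] [Fintype F] (q : ℕ)
    (hF : Fintype.card F = q ^ 2) :
    3 ≤ q → ∀ K : Subalgebra F (Matrix (Fin 5) (Fin 5) F), Cfsg.Geo.IsFieldSubalgebra 5 K →
      Cfsg.Geo.IsAdjointClosedFor (Cfsg.hermForm 5 F q) K →
      Cfsg.Geo.IsMaximalIn (Cfsg.GU 5 F q ⊓ Cfsg.Geo.specialLinear (Fin 5) F)
        (Cfsg.Geo.subalgebraNormalizer K ⊓ (Cfsg.GU 5 F q ⊓ Cfsg.Geo.specialLinear (Fin 5) F)) := by
  intro hq3 K hK hac
  classical
  letI : Field K := (isField_of_isFieldSubalgebra hK).toField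
  have T : Tor q K K.val K :=
    { hF := hF
      finK := inferInstance
      hfr := hK.finrank_eq
      hψ := fun x => ⟨fun h => ⟨⟨x, h⟩, rfl⟩, fun ⟨c, hc⟩ => hc ▸ c.2⟩
      hK := hK
      hac := hac }
  set S := Cfsg.GU 5 F q ⊓ Cfsg.Geo.specialLinear (Fin 5) F with hSdef
  have hq2 : 2 ≤ q := by omega
  -- the characteristic
  obtain ⟨p, hp⟩ := CharP.exists F
  haveI := hp
  haveI : Fact p.Prime := ⟨CharP.char_is_prime F p⟩
  have hpp : p.Prime := Fact.out
  obtain ⟨n, -, hn⟩ := FiniteField.card F p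
  obtain ⟨f, -, hf⟩ := (Nat.dvd_prime_pow hpp).1
    (hn ▸ hF ▸ dvd_pow_self q two_ne_zero : q ∣ p ^ (n : ℕ))
  have hf0 : f ≠ 0 := by
    rintro rfl
    rw [pow_zero] at hf
    omega
  -- the order of the torus
  set d := Nat.gcd 5 (q + 1) with hd
  have hd0 : 0 < d := T.d_pos
  obtain ⟨m, hm⟩ : ∃ m, m * d = m0 q :=
    ⟨m0 q / d, Nat.div_mul_cancel (hd ▸ gcd_scalar q hq2 ▸ Nat.gcd_dvd_left _ _)⟩
  have hm5 : m.Coprime 5 := coprime_five q m hq2 hm
  have hd15 : d = 1 ∨ d = 5 := (Nat.dvd_prime (by norm_num)).1 (Nat.gcd_dvd_left _ _)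
  have hm36 : 36 < m := by
    rcases hd15 with h1 | h1
    · rw [h1, mul_one] at hm
      rcases eq_or_ne q 3 with rfl | hne
      · rw [hm]; decide
      · have := m0_ge q hq2
        have h4 : 4 ^ 3 ≤ q ^ 3 := Nat.pow_le_pow_left (by omega) 3
        omega
    · rw [h1] at hm
      have h5 : 5 ∣ q + 1 := h1 ▸ hd ▸ Nat.gcd_dvd_right _ _
      rcases eq_or_ne q 4 with rfl | hne
      · rw [show m0 4 = 205 by decide] at hm
        omega
      · have := m0_ge q hq2
        have h4 : 9 ^ 3 ≤ q ^ 3 := Nat.pow_le_pow_left (by omega) 3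
        omega
  have hpd : ¬ p ∣ d := by
    rcases hd15 with h1 | h1 <;> rw [h1]
    · exact hpp.not_dvd_one
    · intro h
      have h5 : p = 5 := (Nat.prime_dvd_prime_iff_eq hpp (by norm_num)).1 h
      have h6 : 5 ∣ q + 1 := h1 ▸ hd ▸ Nat.gcd_dvd_right _ _
      have h7 : 5 ∣ q := hf ▸ h5 ▸ dvd_pow_self p hf0
      omega
  have hcardS : Nat.card S =
      q ^ 10 * ((q + 1) ^ 4 * (q - 1) ^ 2 * (q ^ 2 + 1) * (q ^ 2 - q + 1)) * m0 q :=
    card_S q hF
  have hNS : T.Nor ≤ S := inf_le_right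
  -- the torus has index five in its normaliser
  have hNor : Nat.card T.Nor = 5 * m0 q := by
    refine T.card_nor.resolve_left fun h1 => ?_
    have hidx := T.relIndex_A hNS le_rfl hm (e := 1) (by rw [h1, one_mul]) (by omega)
    refine false_of_selfNormalizing (T.A S) (T.comm_A hNS) (T.centralizer_A hNS le_rfl hm) ?_
      (le_antisymm (Subgroup.relIndex_eq_one.1 hidx) Subgroup.le_normalizer) ?_
    · rw [T.card_A_eq hNS le_rfl hm]; omega
    · have h := congrArg (Subgroup.map (QuotientGroup.mk' (T.W S))) (commutator_S q hF hq2)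
      rw [commutator_def, Subgroup.map_commutator,
        Subgroup.map_top_of_surjective _ (QuotientGroup.mk'_surjective _)] at h
      rwa [commutator_def]
  have horder : ∀ X : Subgroup (GL (Fin 5) F), T.Nor ≤ X → X ≤ S →
      ∃ t, Nat.card X = 5 * m * t * d ∧ t % m = 1 := by
    intro X hX hXS
    obtain ⟨t, ht, htm⟩ := card_eq_of_cc (T.A X) (T.comm_A hX) (T.centralizer_A hX hXS hm) 5 m
      (T.card_A_eq hX hXS hm) (T.relIndex_A hX hXS hm hNor (by omega)) hm5 (by omega)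
    exact ⟨t, by rw [← T.card_overgroup hX hXS, ht], htm⟩
  obtain ⟨t₀, ht₀, ht₀m⟩ := horder S hNS le_rfl
  refine ⟨lt_of_le_of_ne inf_le_right fun h => not_le_normalizer q hF hK (h.ge.trans inf_le_left),
    fun X hX hXS => ?_⟩
  by_contra hcon
  push Not at hcon
  obtain ⟨hXN, hXS'⟩ := hcon
  change T.Nor ≤ X at hX
  obtain ⟨t, ht, htm⟩ := horder X hX hXS
  obtain ⟨Z, hZ⟩ := Subgroup.card_dvd_of_le hXS
  have hZ1 : 1 < Z := by
    have hpos : 0 < Nat.card S := Nat.card_pos
    rcases Z with _ | _ | Z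
    · rw [hZ, mul_zero] at hpos; exact absurd hpos (lt_irrefl _)
    · exact absurd (Subgroup.eq_of_le_of_card_ge hXS (by rw [hZ]; simp)) hXS'
    · omega
  have hZm : Z % m = 1 := by
    have h : t * Z = t₀ := by
      refine Nat.eq_of_mul_eq_mul_left (show 0 < 5 * m * d by positivity) ?_
      calc 5 * m * d * (t * Z) = Nat.card X * Z := by rw [ht]; ring
        _ = Nat.card S := hZ.symm
        _ = _ := by rw [ht₀]; ring
    rw [← h, Nat.mul_mod, htm, one_mul, Nat.mod_mod] at ht₀m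
    exact ht₀m
  have hGd : Nat.card (↥X ⧸ T.W X) * d = Nat.card X := T.card_overgroup hX hXS
  have hG : Nat.card (↥X ⧸ T.W X) * Z =
      q ^ 10 * ((q + 1) ^ 4 * (q - 1) ^ 2 * (q ^ 2 + 1) * (q ^ 2 - q + 1)) * m := by
    refine Nat.eq_of_mul_eq_mul_right hd0 ?_
    calc Nat.card (↥X ⧸ T.W X) * Z * d = Nat.card X * Z := by rw [← hGd]; ring
      _ = Nat.card S := hZ.symm
      _ = _ := by rw [hcardS, ← hm]; ring
  have hnn : ¬ (T.A X).Normal := by
    intro hn
    refine hXN (le_antisymm (fun x hx => ?_) hX)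
    exact (T.mem_normalizer_A hX hXS (x := ⟨x, hx⟩)).1
      (Subgroup.normalizer_eq_top_iff.2 hn ▸ Subgroup.mem_top _)
  have hsys : DegreeSystem (Nat.card (↥X ⧸ T.W X)) m := by
    refine degreeSystem_of_config (p := p) (T.A X) (T.isCyclic_A hX) (T.card_A_eq hX hXS hm) hm36
      hm5 (T.centralizer_A hX hXS hm) (T.relIndex_A hX hXS hm hNor (by omega)) hnn
      (fun Q hQ hAQ => T.no_pGroup hX hXS hpd Q hQ hAQ) fun l a hl hlp hla hmod => ?_
    refine no_primePower hpp hf0 hf hq3 hd hm hl hlp ?_ hmod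
    have hlm : (l ^ a).Coprime m := by
      rw [Nat.coprime_comm, Nat.coprime_iff_gcd_eq_one, Nat.gcd_rec, hmod, Nat.gcd_one_left]
    have hlq : (l ^ a).Coprime (q ^ 10) := by
      rw [hf, ← pow_mul]
      exact Nat.Coprime.pow _ _ ((Nat.coprime_primes hl hpp).2 hlp)
    exact hlq.dvd_of_dvd_mul_left (hlm.dvd_of_dvd_mul_right (hG ▸ hla.mul_right Z))
  refine no_degreeSystem hpp hf0 hf hq3 hd hm ⟨Z, hZ1, hZm, hG⟩ ?_ hsys
  exact ⟨t, Nat.eq_of_mul_eq_mul_right hd0 (by rw [hGd, ht])⟩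

end Cfsg.Agent.MaxSub.SingerSU5
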