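import Cfsg.Agent.MaxSub.SingerSU5.Torus

/-!
The image of the torus in the quotient of an overgroup of its normaliser by the scalars.
-/

set_option autoImplicit false
set_option linter.unusedSectionVars false

namespace Cfsg.Agent.MaxSub.SingerSU5

open Matrix Module Cfsg.Geo
open Cfsg.Agent.Classical.U
open scoped MatrixGroups Matrix

theorem m0_ge (q : ℕ) (hq : 2 ≤ q) : q ^ 3 + 3 ≤ m0 q := by
  zify
  rw [m0_cast q (by omega)]
  have h : (2 : ℤ) ≤ q := by exact_mod_cast hq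
  nlinarith [mul_le_mul_of_nonneg_left h (by positivity : (0 : ℤ) ≤ (q : ℤ) ^ 3)]

theorem coprime_five (q m : ℕ) (hq : 2 ≤ q) (hm : m * Nat.gcd 5 (q + 1) = m0 q) : m.Coprime 5 := by
  refine Nat.Coprime.symm ((Nat.Prime.coprime_iff_not_dvd (by norm_num)).2 ?_)
  intro h5
  by_cases hd : 5 ∣ q + 1
  · rw [Nat.gcd_eq_left hd] at hm
    obtain ⟨c, hc⟩ := h5
    obtain ⟨u, hu⟩ := hd
    have h1 := m0_cast q (by omega)
    rw [← hm, hc] at h1
    push_cast at h1
    have hu' : (q : ℤ) = 5 * u - 1 := by omega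
    rw [hu'] at h1
    have h2 : (25 : ℤ) ∣ 5 := ⟨(c : ℤ) - (25 * u ^ 4 - 25 * u ^ 3 + 10 * u ^ 2 - 2 * u), by linear_combination -h1⟩
    norm_num at h2
  · have h0 : 5 ∣ m0 q := hm ▸ h5.mul_right _
    have h1 : 5 ∣ q ^ 5 + 1 := m0_mul q (by omega) ▸ h0.mul_left _
    apply hd
    haveI : Fact (Nat.Prime 5) := ⟨by norm_num⟩
    rw [← CharP.cast_eq_zero_iff (ZMod 5) 5] at h1 ⊢
    push_cast at h1 ⊢
    rwa [ZMod.pow_card] at h1

namespace Tor

variable {F : Type*} [Field F] [Fintype F] {q : ℕ} {K : Type*} [Field K] [Algebra F K]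
  {ψ : K →ₐ[F] Matrix (Fin 5) (Fin 5) F}
  {K₀ : Subalgebra F (Matrix (Fin 5) (Fin 5) F)} (T : Tor q K ψ K₀)

/-- The normaliser of the field in the special unitary group. -/
def Nor (_T : Tor q K ψ K₀) : Subgroup (GL (Fin 5) F) :=
  subalgebraNormalizer K₀ ⊓ (Cfsg.GU 5 F q ⊓ specialLinear (Fin 5) F)

include T

theorem mem_nor {g : GL (Fin 5) F} : g ∈ T.Nor ↔
    g ∈ subalgebraNormalizer K₀ ∧ g ∈ Cfsg.GU 5 F q ⊓ specialLinear (Fin 5) F := Iff.rfl

theorem torus_le_nor : T.torus ≤ T.Nor := fun g hg => by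
  refine ⟨(mem_normalizer_iff_map_le).2 fun x hx => ?_, hg.1⟩
  exact K₀.mul_mem (K₀.mul_mem hg.2 hx) (T.torus.inv_mem hg).2

theorem pow_d_iff {g : GL (Fin 5) F} (hg : g ∈ T.torus) :
    g ∈ scalars (Fin 5) F ↔ ∃ k : K, k ^ Nat.gcd 5 (q + 1) = 1 ∧ ψ k = (g : Matrix (Fin 5) (Fin 5) F) := by
  obtain ⟨k, hk1, hk⟩ := T.mem_torus_iff.1 hg
  rw [mem_scalars_iff]
  constructor
  · rintro ⟨c, hc⟩
    exact ⟨k, (T.scalar_iff hk1).1 (T.mem_bot_iff.2 ⟨c, hk.trans hc⟩), hk⟩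
  · rintro ⟨k', hk', hk''⟩
    have e : k = k' := T.inj (hk.trans hk''.symm)
    subst e
    obtain ⟨a, ha⟩ := T.mem_bot_iff.1 ((T.scalar_iff hk1).2 hk')
    have ha0 : a ≠ 0 := by
      rintro rfl
      rw [zero_smul, hk] at ha
      exact Units.ne_zero g ha
    exact ⟨Units.mk0 a ha0, hk.symm.trans ha⟩

theorem scalar_mem_torus {g : GL (Fin 5) F}
    (hg : g ∈ Cfsg.GU 5 F q ⊓ specialLinear (Fin 5) F) (hs : g ∈ scalars (Fin 5) F) : g ∈ T.torus := by
  obtain ⟨c, hc⟩ := (mem_scalars_iff g).1 hs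
  exact ⟨hg, hc ▸ K₀.smul_mem (one_mem K₀) _⟩

theorem card_scalar : Nat.card ↥(T.torus ⊓ scalars (Fin 5) F) = Nat.gcd 5 (q + 1) := by
  haveI := T.finK
  have hq := T.sq.one_lt
  have hdm : Nat.gcd 5 (q + 1) ∣ m0 q := gcd_scalar q hq ▸ Nat.gcd_dvd_left _ _
  rw [← T.card_roots (hdm.trans T.m0_dvd)]
  choose k hk1 hk2 using fun g : ↥(T.torus ⊓ scalars (Fin 5) F) => (T.pow_d_iff g.2.1).1 g.2.2
  refine Nat.card_eq_of_bijective (fun g => ⟨k g, hk1 g⟩) ⟨fun a b h => ?_, fun x => ?_⟩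
  · have : k a = k b := congrArg Subtype.val h
    exact Subtype.ext (Units.ext (by rw [← hk2, ← hk2, this]))
  · have hx0 : x.1 ^ m0 q = 1 := by
      obtain ⟨c, hc⟩ := hdm
      rw [hc, pow_mul, x.2, one_pow]
    obtain ⟨g, hg, hgx⟩ : ∃ g, g ∈ T.torus ∧ ψ x.1 = (g : Matrix (Fin 5) (Fin 5) F) := by
      have h := pow_gcd_eq_one.1 ((congrArg (x.1 ^ ·) (gcd_exponents q hq.le)).trans hx0)
      exact T.exists_of_pow h.1 h.2
    have hmem : g ∈ T.torus ⊓ scalars (Fin 5) F := ⟨hg, (T.pow_d_iff hg).2 ⟨x.1, x.2, hgx⟩⟩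
    exact ⟨⟨g, hmem⟩, Subtype.ext (T.inj ((hk2 ⟨g, hmem⟩).trans hgx.symm))⟩

/-- Scalar multiples of a non-scalar torus element among its conjugates only come from the torus. -/
theorem conj_scalar {x c : GL (Fin 5) F} {m : ℕ} (hm : m * Nat.gcd 5 (q + 1) = m0 q)
    (hx : x ∈ Cfsg.GU 5 F q ⊓ specialLinear (Fin 5) F) (hc : c ∈ T.torus)
    (hcs : c ∉ scalars (Fin 5) F) (h : x * c * x⁻¹ * c⁻¹ ∈ T.torus ⊓ scalars (Fin 5) F) :
    x ∈ T.torus := by
  haveI := T.finK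
  obtain ⟨k, hk1, hk⟩ := T.mem_torus_iff.1 hc
  obtain ⟨a, ha1, ha⟩ := (T.pow_d_iff h.1).1 h.2
  have e1 : x * c * x⁻¹ = (x * c * x⁻¹ * c⁻¹) * c := by group
  have hconj : (x : Matrix (Fin 5) (Fin 5) F) * ψ k * ((x⁻¹ : GL (Fin 5) F) : Matrix (Fin 5) (Fin 5) F) =
      ψ (a * k) := by
    rw [map_mul, ha, hk, ← Units.val_mul, ← Units.val_mul, ← Units.val_mul, ← e1]
  have hd5 : Nat.gcd 5 (q + 1) ∣ 5 := Nat.gcd_dvd_left _ _
  have ha5 : a ^ 5 = 1 := by
    obtain ⟨c', hc'⟩ := hd5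
    rw [hc', pow_mul, ha1, one_pow]
  have hk5 : k ^ 5 ∉ (⊥ : Subalgebra F K) := by
    intro hb
    have hk5' : (k ^ 5) ^ m0 q = 1 := by rw [← pow_mul, mul_comm, pow_mul, hk1, one_pow]
    have h5d := (T.scalar_iff hk5').1 hb
    have hkd : k ^ Nat.gcd 5 (q + 1) = 1 := by
      have hg : Nat.gcd (m0 q) (5 * Nat.gcd 5 (q + 1)) = Nat.gcd 5 (q + 1) := by
        rw [← hm, Nat.gcd_mul_right, (coprime_five q m T.sq.one_lt hm).gcd_eq_one, one_mul]
      rw [← hg, pow_gcd_eq_one]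
      exact ⟨hk1, by rw [pow_mul]; exact h5d⟩
    exact hcs ((T.pow_d_iff hc).2 ⟨k, hkd, hk⟩)
  refine ⟨hx, T.commute_mem hk5 ?_⟩
  have h5 : (x : Matrix (Fin 5) (Fin 5) F) * ψ (k ^ 5) * ((x⁻¹ : GL (Fin 5) F) : Matrix (Fin 5) (Fin 5) F) =
      ψ (k ^ 5) := by
    have : ((x : Matrix (Fin 5) (Fin 5) F) * ψ k * ((x⁻¹ : GL (Fin 5) F) : Matrix (Fin 5) (Fin 5) F)) ^ 5 =
        (x : Matrix (Fin 5) (Fin 5) F) * ψ (k ^ 5) * ((x⁻¹ : GL (Fin 5) F) : Matrix (Fin 5) (Fin 5) F) := by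
      rw [Units.conj_pow, map_pow]
    rw [← this, hconj, ← map_pow, mul_pow, ha5, one_mul]
  calc (x : Matrix (Fin 5) (Fin 5) F) * ψ (k ^ 5)
      = (x : Matrix (Fin 5) (Fin 5) F) * ψ (k ^ 5) * (((x⁻¹ : GL (Fin 5) F) : Matrix (Fin 5) (Fin 5) F) *
          (x : Matrix (Fin 5) (Fin 5) F)) := by rw [Units.inv_mul, mul_one]
    _ = _ := by rw [← mul_assoc, h5]

theorem exists_nonscalar : ∃ c ∈ T.torus, c ∉ scalars (Fin 5) F := by
  by_contra hcon
  push Not at hcon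
  have e : T.torus ⊓ scalars (Fin 5) F = T.torus := inf_eq_left.2 hcon
  have h := T.card_scalar
  rw [e, T.card_torus] at h
  have h1 := m0_ge q T.sq.one_lt
  have h2 : Nat.gcd 5 (q + 1) ≤ 5 := Nat.le_of_dvd (by norm_num) (Nat.gcd_dvd_left _ _)
  have h3 : 2 ^ 3 ≤ q ^ 3 := Nat.pow_le_pow_left T.sq.one_lt 3
  omega

theorem mem_nor_of_conj {x c : GL (Fin 5) F}
    (hx : x ∈ Cfsg.GU 5 F q ⊓ specialLinear (Fin 5) F) (hc : c ∈ T.torus)
    (hcs : c ∉ scalars (Fin 5) F) (h : x * c * x⁻¹ ∈ T.torus) : x ∈ T.Nor := by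
  obtain ⟨k, hk1, hk⟩ := T.mem_torus_iff.1 hc
  refine ⟨T.conj_mem (k := k) (fun hb => hcs ((T.pow_d_iff hc).2 ⟨k, (T.scalar_iff hk1).1 hb, hk⟩)) ?_, hx⟩
  rw [hk, ← Units.val_mul, ← Units.val_mul]
  exact h.2

theorem conj_torus {x c : GL (Fin 5) F} (hx : x ∈ T.Nor) (hc : c ∈ T.torus) : x * c * x⁻¹ ∈ T.torus := by
  refine ⟨mul_mem (mul_mem hx.2 hc.1) (inv_mem hx.2), ?_⟩
  rw [Units.val_mul, Units.val_mul]
  exact (mem_normalizer_iff_map_le.1 hx.1) _ hc.2

/-- The torus has index one or five in the normaliser. -/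
theorem card_nor : Nat.card T.Nor = m0 q ∨ Nat.card T.Nor = 5 * m0 q := by
  haveI := T.finK
  haveI := T.fdim
  have hex : ∀ (x : T.Nor) (k : K), ∃ k' : K,
      ψ k' = (x.1 : Matrix (Fin 5) (Fin 5) F) * ψ k * ((x.1⁻¹ : GL (Fin 5) F) : Matrix (Fin 5) (Fin 5) F) :=
    fun x k => (T.hψ _).1 ((mem_normalizer_iff_map_le.1 x.2.1) _ (T.mem k))
  choose σ hσ using hex
  let χ : T.Nor → (K →ₐ[F] K) := fun x =>
    { toFun := σ x
      map_one' := T.inj (by rw [hσ, map_one, mul_one, Units.mul_inv])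
      map_mul' := fun a b => T.inj (by
        rw [hσ, map_mul, map_mul, hσ, hσ]
        simp only [mul_assoc]
        rw [← mul_assoc ((x.1⁻¹ : GL (Fin 5) F) : Matrix (Fin 5) (Fin 5) F), Units.inv_mul, one_mul])
      map_zero' := T.inj (by rw [hσ, map_zero, mul_zero, zero_mul])
      map_add' := fun a b => T.inj (by rw [hσ, map_add, map_add, hσ, hσ, mul_add, add_mul])
      commutes' := fun t => T.inj (by
        rw [hσ, AlgHom.commutes, Algebra.algebraMap_eq_smul_one, mul_smul_comm, mul_one, smul_mul_assoc,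
          Units.mul_inv]) }
  let Φ : T.Nor →* Gal(K/F) :=
    { toFun := fun x => AlgEquiv.ofBijective (χ x)
        (Finite.injective_iff_bijective.1 (χ x).toRingHom.injective)
      map_one' := AlgEquiv.ext fun k => T.inj (by
        show ψ (σ 1 k) = _
        rw [hσ]
        simp)
      map_mul' := fun a b => AlgEquiv.ext fun k => T.inj (by
        show ψ (σ (a * b) k) = ψ (σ a (σ b k))
        rw [hσ, hσ, hσ, Subgroup.coe_mul, _root_.mul_inv_rev, Units.val_mul, Units.val_mul]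
        simp only [mul_assoc]) }
  have hker : Φ.ker = T.torus.subgroupOf T.Nor := by
    ext x
    rw [MonoidHom.mem_ker, Subgroup.mem_subgroupOf]
    constructor
    · intro e
      obtain ⟨c, hc, hcs⟩ := T.exists_nonscalar
      obtain ⟨k, hk1, hk⟩ := T.mem_torus_iff.1 hc
      refine ⟨x.2.2, T.commute_mem (k := k)
        (fun hb => hcs ((T.pow_d_iff hc).2 ⟨k, (T.scalar_iff hk1).1 hb, hk⟩)) ?_⟩
      have e' : σ x k = k := congrArg (fun f : Gal(K/F) => f k) e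
      have h := hσ x k
      rw [e'] at h
      calc (x.1 : Matrix (Fin 5) (Fin 5) F) * ψ k
          = (x.1 : Matrix (Fin 5) (Fin 5) F) * ψ k * (((x.1⁻¹ : GL (Fin 5) F) : Matrix (Fin 5) (Fin 5) F) *
              (x.1 : Matrix (Fin 5) (Fin 5) F)) := by rw [Units.inv_mul, mul_one]
        _ = _ := by rw [← mul_assoc, ← h]
    · intro hx
      obtain ⟨a, ha⟩ := (T.hψ _).1 hx.2
      refine AlgEquiv.ext fun k => T.inj ?_
      show ψ (σ x k) = ψ k
      rw [hσ, ← ha, ← map_mul, mul_comm a k, map_mul, mul_assoc, ha, Units.mul_inv, mul_one]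
  have hrange : Nat.card Φ.range = 1 ∨ Nat.card Φ.range = 5 :=
    (Nat.dvd_prime (by norm_num)).1 ((Subgroup.card_subgroup_dvd_card _).trans
      (by rw [IsGalois.card_aut_eq_finrank, T.hfr]))
  have hmul : Nat.card T.Nor = Nat.card Φ.range * m0 q := by
    rw [← T.card_torus, Subgroup.card_eq_card_quotient_mul_card_subgroup Φ.ker,
      Nat.card_congr (QuotientGroup.quotientKerEquivRange Φ).toEquiv, hker,
      Nat.card_congr (Subgroup.subgroupOfEquivOfLe T.torus_le_nor).toEquiv]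
  rcases hrange with h | h <;> rw [h] at hmul
  · exact Or.inl (by rw [hmul, one_mul])
  · exact Or.inr hmul

section Overgroup

variable (X : Subgroup (GL (Fin 5) F))

/-- The scalars of `X`. -/
def W (_T : Tor q K ψ K₀) (X : Subgroup (GL (Fin 5) F)) : Subgroup X :=
  (scalars (Fin 5) F).subgroupOf X

omit T in
theorem scalar_comm {g : GL (Fin 5) F} (hg : g ∈ scalars (Fin 5) F) (x : GL (Fin 5) F) :
    x * g = g * x := by
  obtain ⟨c, hc⟩ := (mem_scalars_iff g).1 hg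
  refine Units.ext ?_
  rw [Units.val_mul, Units.val_mul, hc, mul_smul_comm, smul_mul_assoc, mul_one, one_mul]

instance W_normal : (T.W X).Normal := ⟨fun w hw x => by
  have hw' : (w : GL (Fin 5) F) ∈ scalars (Fin 5) F := hw
  show (x.1 * w.1 * x.1⁻¹) ∈ scalars (Fin 5) F
  rw [scalar_comm hw', mul_inv_cancel_right]
  exact hw'⟩

/-- The image of the torus. -/
def A (T : Tor q K ψ K₀) (X : Subgroup (GL (Fin 5) F)) : Subgroup (↥X ⧸ T.W X) :=
  (T.torus.subgroupOf X).map (QuotientGroup.mk' (T.W X))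

variable {X} (hX : T.Nor ≤ X) (hXS : X ≤ Cfsg.GU 5 F q ⊓ specialLinear (Fin 5) F)

include hXS in
theorem card_W (hX : T.Nor ≤ X) : Nat.card (T.W X) = Nat.gcd 5 (q + 1) := by
  rw [← T.card_scalar]
  exact Nat.card_congr
    { toFun := fun w => ⟨w.1.1, T.scalar_mem_torus (hXS w.1.2) w.2, w.2⟩
      invFun := fun g => ⟨⟨g.1, hX (T.torus_le_nor g.2.1)⟩, g.2.2⟩
      left_inv := fun w => rfl
      right_inv := fun g => rfl }

include hXS in
theorem mk_mem_A {x : X} : (x : ↥X ⧸ T.W X) ∈ T.A X ↔ x.1 ∈ T.torus := by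
  constructor
  · rintro ⟨c, hc, hcx⟩
    have h := QuotientGroup.eq.1 hcx
    have hs : c.1⁻¹ * x.1 ∈ scalars (Fin 5) F := h
    have h2 := mul_mem (show c.1 ∈ T.torus from hc)
      (T.scalar_mem_torus (mul_mem (inv_mem (hXS c.2)) (hXS x.2)) hs)
    rwa [mul_inv_cancel_left] at h2
  · intro hx
    exact ⟨x, hx, rfl⟩

include hX hXS in
theorem card_A : Nat.card (T.A X) * Nat.gcd 5 (q + 1) = m0 q := by
  have hle : T.torus ≤ X := T.torus_le_nor.trans hX
  have hWle : T.W X ≤ T.torus.subgroupOf X := fun w hw => T.scalar_mem_torus (hXS w.2) hw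
  let f := (QuotientGroup.mk' (T.W X)).comp (T.torus.subgroupOf X).subtype
  have h := Subgroup.card_eq_card_quotient_mul_card_subgroup f.ker
  rw [Nat.card_congr (QuotientGroup.quotientKerEquivRange f).toEquiv,
    Nat.card_congr (Subgroup.subgroupOfEquivOfLe hle).toEquiv, T.card_torus] at h
  have hr : f.range = T.A X := by
    rw [MonoidHom.range_comp, Subgroup.range_subtype]
    rfl
  have hk : f.ker = (T.W X).subgroupOf (T.torus.subgroupOf X) := by
    rw [← MonoidHom.comap_ker, QuotientGroup.ker_mk']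
    rfl
  rw [hr, hk, Nat.card_congr (Subgroup.subgroupOfEquivOfLe hWle).toEquiv, T.card_W hXS hX] at h
  exact h.symm

include hX hXS in
theorem centralizer_A {m : ℕ} (hm : m * Nat.gcd 5 (q + 1) = m0 q) :
    ∀ a ∈ T.A X, a ≠ 1 → Subgroup.centralizer ({a} : Set (↥X ⧸ T.W X)) ≤ T.A X := by
  intro a ha ha1 g hg
  obtain ⟨c, hc, rfl⟩ := ha
  induction g using QuotientGroup.induction_on with
  | H x =>
    rw [Subgroup.mem_centralizer_singleton_iff] at hg
    rw [T.mk_mem_A hXS]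
    have hcs : c.1 ∉ scalars (Fin 5) F := fun h => ha1 ((QuotientGroup.eq_one_iff c).2 h)
    have h' : ((x * c * x⁻¹ * c⁻¹ : X) : ↥X ⧸ T.W X) = 1 := by
      rw [QuotientGroup.mk_mul, QuotientGroup.mk_mul, QuotientGroup.mk_mul, QuotientGroup.mk_inv,
        QuotientGroup.mk_inv]
      change (x : ↥X ⧸ T.W X) * (QuotientGroup.mk' (T.W X) c) * _ * (QuotientGroup.mk' (T.W X) c)⁻¹ = 1
      rw [hg, mul_inv_cancel_right, mul_inv_cancel]
    have hW : (x * c * x⁻¹ * c⁻¹ : X) ∈ T.W X := (QuotientGroup.eq_one_iff _).1 h'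
    have hs : x.1 * c.1 * x.1⁻¹ * c.1⁻¹ ∈ scalars (Fin 5) F := hW
    refine T.conj_scalar hm (hXS x.2) hc hcs ⟨T.scalar_mem_torus ?_ hs, hs⟩
    exact mul_mem (mul_mem (mul_mem (hXS x.2) (hXS c.2)) (inv_mem (hXS x.2))) (inv_mem (hXS c.2))

include hX hXS in
theorem mem_normalizer_A {x : X} :
    (x : ↥X ⧸ T.W X) ∈ Subgroup.normalizer (T.A X : Set (↥X ⧸ T.W X)) ↔ x.1 ∈ T.Nor := by
  constructor
  · intro h
    obtain ⟨c, hc, hcs⟩ := T.exists_nonscalar
    have h' := (Subgroup.mem_normalizer_iff.1 h ((⟨c, hX (T.torus_le_nor hc)⟩ : X) : ↥X ⧸ T.W X)).1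
      ((T.mk_mem_A hXS).2 hc)
    rw [← QuotientGroup.mk_mul, ← QuotientGroup.mk_inv, ← QuotientGroup.mk_mul, T.mk_mem_A hXS] at h'
    exact T.mem_nor_of_conj (hXS x.2) hc hcs h'
  · intro hx
    rw [Subgroup.mem_normalizer_iff]
    intro a
    induction a using QuotientGroup.induction_on with
    | H y =>
      rw [← QuotientGroup.mk_mul, ← QuotientGroup.mk_inv, ← QuotientGroup.mk_mul, T.mk_mem_A hXS,
        T.mk_mem_A hXS]
      refine ⟨fun hy => T.conj_torus hx hy, fun hy => ?_⟩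
      have := T.conj_torus (inv_mem hx) hy
      simpa [mul_assoc] using this

include hX hXS in
theorem card_normalizer_A :
    Nat.card (Subgroup.normalizer (T.A X : Set (↥X ⧸ T.W X))) * Nat.gcd 5 (q + 1) = Nat.card T.Nor := by
  have hWle : T.W X ≤ T.Nor.subgroupOf X := fun w hw =>
    T.torus_le_nor (T.scalar_mem_torus (hXS w.2) hw)
  let f := (QuotientGroup.mk' (T.W X)).comp (T.Nor.subgroupOf X).subtype
  have h := Subgroup.card_eq_card_quotient_mul_card_subgroup f.ker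
  rw [Nat.card_congr (QuotientGroup.quotientKerEquivRange f).toEquiv,
    Nat.card_congr (Subgroup.subgroupOfEquivOfLe hX).toEquiv] at h
  have hr : f.range = Subgroup.normalizer (T.A X : Set (↥X ⧸ T.W X)) := by
    ext g
    induction g using QuotientGroup.induction_on with
    | H x =>
      rw [T.mem_normalizer_A hX hXS]
      constructor
      · rintro ⟨y, hy⟩
        have hy' : ((y.1 : X) : ↥X ⧸ T.W X) = (x : ↥X ⧸ T.W X) := hy
        have h0 : (y.1 : X)⁻¹ * x ∈ T.W X := QuotientGroup.eq.1 hy'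
        have h1 : y.1.1⁻¹ * x.1 ∈ scalars (Fin 5) F := h0
        have h2 := mul_mem (show y.1.1 ∈ T.Nor from y.2) (T.torus_le_nor
          (T.scalar_mem_torus (mul_mem (inv_mem (hXS y.1.2)) (hXS x.2)) h1))
        rwa [mul_inv_cancel_left] at h2
      · intro hx
        exact ⟨⟨x, hx⟩, rfl⟩
  have hk : f.ker = (T.W X).subgroupOf (T.Nor.subgroupOf X) := by
    rw [← MonoidHom.comap_ker, QuotientGroup.ker_mk']
    rfl
  rw [hr, hk, Nat.card_congr (Subgroup.subgroupOfEquivOfLe hWle).toEquiv, T.card_W hXS hX] at h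
  exact h.symm

include hX hXS in
/-- No non-trivial `p`-subgroup of the quotient is normalised by the torus. -/
theorem no_pGroup {p : ℕ} [Fact p.Prime] [CharP F p] (hpd : ¬ p ∣ Nat.gcd 5 (q + 1))
    (Q : Subgroup (↥X ⧸ T.W X)) (hQ : IsPGroup p Q) (hA : T.A X ≤ Subgroup.normalizer (Q : Set (↥X ⧸ T.W X))) :
    Q = ⊥ := by
  haveI := T.finK
  set π := QuotientGroup.mk' (T.W X) with hπ
  set Qt := Q.comap π with hQt
  obtain ⟨k, hk⟩ := IsPGroup.iff_card.1 hQ
  have hcard : Nat.card Qt = Nat.card Q * Nat.gcd 5 (q + 1) := by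
    let g : Qt →* Q := (π.subgroupComap Q)
    have h := Subgroup.card_eq_card_quotient_mul_card_subgroup g.ker
    have hsurj : Function.Surjective g := fun y => by
      obtain ⟨x, hx⟩ := QuotientGroup.mk'_surjective (T.W X) y.1
      exact ⟨⟨x, show π x ∈ Q from hx ▸ y.2⟩, Subtype.ext hx⟩
    have hle : T.W X ≤ Qt := fun w hw => by
      show π w ∈ Q
      rw [show π w = 1 from (QuotientGroup.eq_one_iff w).2 hw]
      exact Q.one_mem
    have hker : g.ker = (T.W X).subgroupOf Qt := by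
      ext x
      rw [MonoidHom.mem_ker, Subgroup.mem_subgroupOf, Subtype.ext_iff]
      exact QuotientGroup.eq_one_iff x.1
    rw [Nat.card_congr (QuotientGroup.quotientKerEquivOfSurjective g hsurj).toEquiv, hker,
      Nat.card_congr (Subgroup.subgroupOfEquivOfLe hle).toEquiv, T.card_W hXS hX] at h
    exact h
  obtain ⟨P, hP⟩ := Sylow.exists_subgroup_card_pow_prime (G := Qt) p
    (n := k) (by rw [hcard, hk]; exact Dvd.intro _ rfl)
  set d := Nat.gcd 5 (q + 1) with hd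
  have hco : Nat.Coprime (p ^ k) d :=
    Nat.Coprime.pow_left _ (((Fact.out : p.Prime).coprime_iff_not_dvd).2 hpd)
  have hWcard : Nat.card (T.W X) = d := T.card_W hXS hX
  -- the elements of `Qt` killed by the order of `Q`
  have hsplit : ∀ x : Qt, ∃ u : P, (x.1 : X) * (u.1.1 : X)⁻¹ ∈ T.W X := by
    let g : P → Q := fun u => ⟨π u.1.1, u.1.2⟩
    have hinj : Function.Injective g := fun u v huv => by
      have h1 : (u.1.1 : X)⁻¹ * v.1.1 ∈ T.W X := QuotientGroup.eq.1 (congrArg Subtype.val huv)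
      have ho1 : orderOf ((u.1.1 : X)⁻¹ * v.1.1) ∣ d := hWcard ▸ Subgroup.orderOf_dvd_natCard _ h1
      have ho2 : orderOf ((u.1.1 : X)⁻¹ * v.1.1) ∣ p ^ k := by
        have hmem : u.1⁻¹ * v.1 ∈ P := mul_mem (inv_mem u.2) v.2
        have := hP ▸ Subgroup.orderOf_dvd_natCard _ hmem
        rw [← Subgroup.orderOf_coe] at this
        exact this
      exact Subtype.ext (Subtype.ext (inv_mul_eq_one.1
        (orderOf_eq_one_iff.1 (Nat.eq_one_of_dvd_coprimes hco ho2 ho1))))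
    have hsurj : Function.Surjective g :=
      (hinj.bijective_of_nat_card_le (by rw [hk, hP])).2
    intro x
    obtain ⟨u, hu⟩ := hsurj ⟨π x.1, x.2⟩
    refine ⟨u, ?_⟩
    have h1 : (u.1.1 : X)⁻¹ * x.1 ∈ T.W X := QuotientGroup.eq.1 (congrArg Subtype.val hu)
    have h2 := (T.W_normal X).conj_mem _ h1 u.1.1
    rwa [mul_inv_cancel_left] at h2
  have hkill : ∀ x : Qt, (x.1 : X) ^ p ^ k = 1 → x ∈ P := by
    intro x hx
    obtain ⟨u, hu⟩ := hsplit x
    set w : X := x.1 * u.1.1⁻¹ with hw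
    have hwu : Commute w u.1.1 := Subtype.ext (scalar_comm hu u.1.1.1).symm
    have hxw : x.1 = w * u.1.1 := by rw [hw, inv_mul_cancel_right]
    have hu1 : (u.1.1 : X) ^ p ^ k = 1 := by
      have : u ^ p ^ k = 1 := by rw [← hP]; exact pow_card_eq_one'
      simpa using congrArg (fun z : P => (z.1.1 : X)) this
    rw [hxw, hwu.mul_pow, hu1, mul_one] at hx
    have hw1 : w = 1 := orderOf_eq_one_iff.1 (Nat.eq_one_of_dvd_coprimes hco
      (orderOf_dvd_of_pow_eq_one hx) (hWcard ▸ Subgroup.orderOf_dvd_natCard _ hu))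
    rw [hw1, one_mul] at hxw
    rw [show x = u.1 from Subtype.ext hxw]
    exact u.2
  -- fixed vectors
  let fixW : Submodule F (Fin 5 → F) :=
    { carrier := {v | ∀ u : P, (u.1.1.1 : Matrix (Fin 5) (Fin 5) F) *ᵥ v = v}
      add_mem' := fun {a b} ha hb u => by rw [Matrix.mulVec_add, ha u, hb u]
      zero_mem' := fun u => Matrix.mulVec_zero _
      smul_mem' := fun c v hv u => by rw [Matrix.mulVec_smul, hv u] }
  have hne : fixW ≠ ⊥ := by
    letI act : MulAction P (Fin 5 → F) :=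
      { smul := fun u v => (u.1.1.1 : Matrix (Fin 5) (Fin 5) F) *ᵥ v
        one_smul := fun v => Matrix.one_mulVec v
        mul_smul := fun u v x => (Matrix.mulVec_mulVec x _ _).symm }
    have hPp : IsPGroup p P := IsPGroup.of_card hP
    have hdvd : p ∣ Nat.card (Fin 5 → F) := by
      obtain ⟨n, -, hn⟩ := FiniteField.card F p
      rw [Nat.card_eq_fintype_card, Fintype.card_fun, hn, Fintype.card_fin, ← pow_mul]
      exact dvd_pow_self p (Nat.mul_ne_zero n.pos.ne' (by norm_num))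
    obtain ⟨v, hv, hv0⟩ := hPp.exists_fixed_point_of_prime_dvd_card_of_fixed_point (Fin 5 → F) hdvd
      (a := 0) (fun u => Matrix.mulVec_zero _)
    intro h
    exact hv0 ((Submodule.eq_bot_iff _).1 h v (fun u => hv u)).symm
  obtain ⟨c, hc, hcs⟩ := T.exists_nonscalar
  obtain ⟨kc, hkc1, hkc⟩ := T.mem_torus_iff.1 hc
  have htop : fixW = ⊤ := by
    refine T.irreducible fixW (k := kc)
      (fun hb => hcs ((T.pow_d_iff hc).2 ⟨kc, (T.scalar_iff hkc1).1 hb, hkc⟩)) (fun v hv u => ?_) hne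
    rw [hkc]
    set cX : X := ⟨c, hX (T.torus_le_nor hc)⟩ with hcX
    have hn : π cX ∈ Subgroup.normalizer (Q : Set (↥X ⧸ T.W X)) := hA ((T.mk_mem_A hXS).2 hc)
    have hmem : cX⁻¹ * u.1.1 * cX ∈ Qt := by
      show π _ ∈ Q
      rw [map_mul, map_mul, map_inv]
      exact (Subgroup.mem_normalizer_iff''.1 hn _).1 u.1.2
    have hpow : (cX⁻¹ * u.1.1 * cX) ^ p ^ k = 1 := by
      have : u ^ p ^ k = 1 := by rw [← hP]; exact pow_card_eq_one'
      have h1 : (u.1.1 : X) ^ p ^ k = 1 := by simpa using congrArg (fun z : P => (z.1.1 : X)) this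
      calc (cX⁻¹ * u.1.1 * cX) ^ p ^ k = (cX⁻¹ * u.1.1 * cX⁻¹⁻¹) ^ p ^ k := by rw [inv_inv]
        _ = 1 := by rw [conj_pow, h1, mul_one, mul_inv_cancel]
    have h := hv ⟨⟨_, hmem⟩, hkill ⟨_, hmem⟩ hpow⟩
    change ((c⁻¹ * u.1.1.1 * c : GL (Fin 5) F) : Matrix (Fin 5) (Fin 5) F) *ᵥ v = v at h
    calc (u.1.1.1 : Matrix (Fin 5) (Fin 5) F) *ᵥ ((c : Matrix (Fin 5) (Fin 5) F) *ᵥ v)
        = ((c * (c⁻¹ * u.1.1.1 * c) : GL (Fin 5) F) : Matrix (Fin 5) (Fin 5) F) *ᵥ v := by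
          rw [Matrix.mulVec_mulVec, ← Units.val_mul,
            show c * (c⁻¹ * u.1.1.1 * c) = u.1.1.1 * c by group]
      _ = (c : Matrix (Fin 5) (Fin 5) F) *ᵥ v := by rw [Units.val_mul, ← Matrix.mulVec_mulVec, h]
  have hP1 : ∀ u : P, (u.1.1 : X) = 1 := fun u => by
    refine Subtype.ext (Units.ext (Matrix.toLin'.injective (LinearMap.ext fun v => ?_)))
    have hv : v ∈ fixW := htop ▸ Submodule.mem_top
    rw [Matrix.toLin'_apply, Matrix.toLin'_apply, hv u]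
    exact (Matrix.one_mulVec v).symm
  rw [eq_bot_iff]
  intro y hy
  obtain ⟨x, rfl⟩ := QuotientGroup.mk'_surjective (T.W X) y
  obtain ⟨u, hu⟩ := hsplit ⟨x, hy⟩
  rw [hP1 u, inv_one, mul_one] at hu
  exact (QuotientGroup.eq_one_iff x).2 hu

end Overgroup

end Tor

end Cfsg.Agent.MaxSub.SingerSU5
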