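import Mathlib
import Cfsg.Agent.Classical.UBasic
import Cfsg.Agent.MaxSub.FieldSub
import Cfsg.Agent.MaxSub.UnitExt.Fld
import Cfsg.Agent.Elusive.SingerPrime
import Cfsg.Agent.ClassicalMax.UnitaryProper

/-!
The field subalgebra of degree five closed under adjoints, and its torus in the special unitary group.
-/

set_option autoImplicit false
set_option linter.unusedSectionVars false

namespace Cfsg.Agent.MaxSub.SingerSU5

open Matrix Module Cfsg.Geo
open Cfsg.Agent.Classical.U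
open scoped MatrixGroups Matrix

variable {F : Type*} [Field F] [Fintype F] {q : ℕ}

/-- The data of the Singer clause, with the field as a separate type. -/
structure Tor (q : ℕ) (K : Type*) [Field K] [Algebra F K]
    (ψ : K →ₐ[F] Matrix (Fin 5) (Fin 5) F) (K₀ : Subalgebra F (Matrix (Fin 5) (Fin 5) F)) : Prop where
  hF : Fintype.card F = q ^ 2
  finK : Finite K
  hfr : finrank F K = 5
  hψ : ∀ x, x ∈ K₀ ↔ ∃ c, ψ c = x
  hK : IsFieldSubalgebra 5 K₀
  hac : IsAdjointClosedFor (Cfsg.hermForm 5 F q) K₀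

namespace Tor

variable {K : Type*} [Field K] [Algebra F K] {ψ : K →ₐ[F] Matrix (Fin 5) (Fin 5) F}
  {K₀ : Subalgebra F (Matrix (Fin 5) (Fin 5) F)} (T : Tor q K ψ K₀)

include T

theorem sq : SqField F q := sqField_of_fintype T.hF

theorem fd : UnitExt.FD F K q 5 := ⟨T.sq, T.hfr, by norm_num, by decide⟩

theorem fdim : FiniteDimensional F K := Module.finite_of_finrank_pos (by rw [T.hfr]; norm_num)

theorem mem (k : K) : ψ k ∈ K₀ := (T.hψ _).2 ⟨k, rfl⟩

theorem inj : Function.Injective ψ := ψ.toRingHom.injective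

theorem apply_eq_zero {k : K} {v : Fin 5 → F} (hv : v ≠ 0) (h : ψ k *ᵥ v = 0) : k = 0 := by
  by_contra hk
  apply hv
  have h1 : ψ (k⁻¹ * k) *ᵥ v = 0 := by rw [map_mul, ← Matrix.mulVec_mulVec, h, Matrix.mulVec_zero]
  rwa [inv_mul_cancel₀ hk, map_one, Matrix.one_mulVec] at h1

theorem top_of_not_bot (S : Subalgebra F K) {k : K} (hk : k ∈ S) (hk0 : k ∉ (⊥ : Subalgebra F K)) :
    S = ⊤ := by
  haveI := Subalgebra.isSimpleOrder_of_finrank_prime F K (by rw [T.hfr]; norm_num)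
  exact (IsSimpleOrder.eq_bot_or_eq_top S).resolve_left fun h => hk0 (h ▸ hk)

theorem mem_bot_iff {k : K} : k ∈ (⊥ : Subalgebra F K) ↔ ∃ a : F, ψ k = a • 1 := by
  rw [Algebra.mem_bot]
  constructor
  · rintro ⟨a, rfl⟩
    exact ⟨a, by rw [AlgHom.commutes, Algebra.algebraMap_eq_smul_one]⟩
  · rintro ⟨a, ha⟩
    exact ⟨a, T.inj (by rw [AlgHom.commutes, Algebra.algebraMap_eq_smul_one, ha])⟩

theorem conj_mem {g : GL (Fin 5) F} {k : K} (hk : k ∉ (⊥ : Subalgebra F K))
    (h : (g : Matrix (Fin 5) (Fin 5) F) * ψ k * ((g⁻¹ : GL (Fin 5) F) : Matrix (Fin 5) (Fin 5) F) ∈ K₀) :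
    g ∈ subalgebraNormalizer K₀ := by
  let S : Subalgebra F K :=
    { carrier := {x | (g : Matrix (Fin 5) (Fin 5) F) * ψ x *
        ((g⁻¹ : GL (Fin 5) F) : Matrix (Fin 5) (Fin 5) F) ∈ K₀}
      mul_mem' := fun {x y} hx hy => by
        have e := K₀.mul_mem hx hy
        simp only [Set.mem_setOf_eq, map_mul]
        simpa [mul_assoc, ← Units.val_mul] using e
      add_mem' := fun {x y} hx hy => by
        simp only [Set.mem_setOf_eq, map_add, mul_add, add_mul]
        exact add_mem hx hy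
      algebraMap_mem' := fun t => by
        show _ * ψ (algebraMap F K t) * _ ∈ K₀
        rw [AlgHom.commutes, Algebra.algebraMap_eq_smul_one, mul_smul_comm, mul_one, smul_mul_assoc,
          Units.mul_inv]
        exact K₀.smul_mem (one_mem K₀) t }
  have hS := T.top_of_not_bot S (k := k) h hk
  rw [mem_normalizer_iff_map_le]
  intro x hx
  obtain ⟨c, rfl⟩ := (T.hψ x).1 hx
  have : c ∈ S := hS ▸ Algebra.mem_top
  exact this

theorem commute_mem {g : Matrix (Fin 5) (Fin 5) F} {k : K} (hk : k ∉ (⊥ : Subalgebra F K))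
    (h : g * ψ k = ψ k * g) : g ∈ K₀ := by
  haveI : Fact (Nat.Prime 5) := ⟨by norm_num⟩
  let S : Subalgebra F K :=
    { carrier := {x | g * ψ x = ψ x * g}
      mul_mem' := fun {x y} (hx : g * ψ x = ψ x * g) (hy : g * ψ y = ψ y * g) => by
        show g * ψ (x * y) = ψ (x * y) * g
        rw [map_mul, ← mul_assoc, hx, mul_assoc, hy, mul_assoc]
      add_mem' := fun {x y} (hx : g * ψ x = ψ x * g) (hy : g * ψ y = ψ y * g) => by
        show g * ψ (x + y) = ψ (x + y) * g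
        rw [map_add, mul_add, add_mul, hx, hy]
      algebraMap_mem' := fun t => by
        show g * ψ (algebraMap F K t) = ψ (algebraMap F K t) * g
        rw [AlgHom.commutes, Algebra.algebraMap_eq_smul_one, mul_smul_comm, mul_one, smul_mul_assoc,
          one_mul] }
  have hS := T.top_of_not_bot S (k := k) h hk
  refine Elusive.SingerPrime.mem_of_commute T.hK fun x hx => ?_
  obtain ⟨c, rfl⟩ := (T.hψ x).1 hx
  have : c ∈ S := hS ▸ Algebra.mem_top
  exact this

theorem irreducible (W : Submodule F (Fin 5 → F)) {k : K} (hk : k ∉ (⊥ : Subalgebra F K))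
    (h : ∀ w ∈ W, ψ k *ᵥ w ∈ W) (hW : W ≠ ⊥) : W = ⊤ := by
  haveI := T.fdim
  let S : Subalgebra F K :=
    { carrier := {x | ∀ w ∈ W, ψ x *ᵥ w ∈ W}
      mul_mem' := fun {x y} hx hy w hw => by
        rw [map_mul, ← Matrix.mulVec_mulVec]
        exact hx _ (hy w hw)
      add_mem' := fun {x y} hx hy w hw => by
        rw [map_add, Matrix.add_mulVec]
        exact W.add_mem (hx w hw) (hy w hw)
      algebraMap_mem' := fun t w hw => by
        rw [AlgHom.commutes, Algebra.algebraMap_eq_smul_one, Matrix.smul_mulVec, Matrix.one_mulVec]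
        exact W.smul_mem t hw }
  have hS := T.top_of_not_bot S (k := k) h hk
  obtain ⟨w, hw, hw0⟩ := Submodule.exists_mem_ne_zero_of_ne_bot hW
  let Ev : K →ₗ[F] (Fin 5 → F) :=
    { toFun := fun x => ψ x *ᵥ w
      map_add' := fun a b => by rw [map_add, Matrix.add_mulVec]
      map_smul' := fun a b => by rw [map_smul, Matrix.smul_mulVec, RingHom.id_apply] }
  have hEv : Function.Surjective Ev :=
    (LinearMap.injective_iff_surjective_of_finrank_eq_finrank
      (by rw [T.hfr, Module.finrank_fin_fun])).1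
      ((injective_iff_map_eq_zero Ev).2 fun x hx => T.apply_eq_zero hw0 hx)
  rw [eq_top_iff]
  intro v _
  obtain ⟨x, rfl⟩ := hEv v
  have hx : x ∈ S := hS ▸ Algebra.mem_top
  exact hx w hw

theorem unitary_iff (c : K) :
    (∀ u v, herm q (ψ c *ᵥ u) (ψ c *ᵥ v) = herm q u v) ↔ c ^ (q ^ 5 + 1) = 1 := by
  have hF := T.sq
  have D := T.fd
  haveI := T.finK
  haveI := T.fdim
  haveI : Fintype K := Fintype.ofFinite K
  have hsep : ∀ x y : Fin 5 → F, (∀ u, herm q u x = herm q u y) → x = y := fun x y h =>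
    sub_eq_zero.1 (hF.eq_zero_of_herm _ fun u => by
      rw [← hF.herm_symm, hF.herm_sub_right, h, sub_self, zero_pow hF.q_ne_zero])
  have hadj : ∀ k : K, ∃ k' : K, ∀ u v, herm q (ψ k *ᵥ u) v = herm q u (ψ k' *ᵥ v) := fun k => by
    obtain ⟨k', hk', he⟩ := T.hac _ (T.mem k)
    obtain ⟨c', rfl⟩ := (T.hψ _).1 hk'
    exact ⟨c', he⟩
  choose ad had using hadj
  have huniq : ∀ {a b : K}, (∀ u v, herm q u (ψ a *ᵥ v) = herm q u (ψ b *ᵥ v)) → a = b := fun h =>
    T.inj (Matrix.toLin'.injective (LinearMap.ext fun v => by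
      rw [Matrix.toLin'_apply, Matrix.toLin'_apply]; exact hsep _ _ fun u => h u v))
  have hMF : ∀ (t : F) (v : Fin 5 → F), ψ (algebraMap F K t) *ᵥ v = t • v := fun t v => by
    rw [AlgHom.commutes, Algebra.algebraMap_eq_smul_one, Matrix.smul_mulVec, Matrix.one_mulVec]
  have had_mul : ∀ a b, ad (a * b) = ad a * ad b := fun a b => huniq fun u v => by
    rw [← had, mul_comm (ad a), map_mul, map_mul, ← Matrix.mulVec_mulVec, ← Matrix.mulVec_mulVec, had, had]
  have had_add : ∀ a b, ad (a + b) = ad a + ad b := fun a b => huniq fun u v => by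
    rw [← had, map_add, map_add, Matrix.add_mulVec, Matrix.add_mulVec, hF.herm_add_right,
      herm_add_left, had, had]
  have had_F : ∀ t : F, ad (algebraMap F K t) = algebraMap F K (t ^ q) := fun t => huniq fun u v => by
    rw [← had, hMF, hMF, herm_smul_left, herm_smul_right, hF.pow_pow]
  have had_ad : ∀ a, ad (ad a) = a := fun a => huniq fun u v => by
    rw [← had, ← hF.herm_symm, ← had, hF.herm_symm]
  have had_one : ad 1 = 1 := by simpa using had_F 1
  let χ : K →ₐ[F] K :=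
    { toFun := fun a => ad a ^ q ^ 5
      map_one' := by rw [had_one, one_pow]
      map_mul' := fun a b => by rw [had_mul, mul_pow]
      map_zero' := by
        have := had_F 0
        rw [map_zero, zero_pow hF.q_ne_zero, map_zero] at this
        rw [this, zero_pow D.sqK.q_ne_zero]
      map_add' := fun a b => by rw [had_add, D.sqK.add_pow]
      commutes' := fun t => by rw [had_F, D.algebraMap_pow, hF.pow_pow] }
  let χ' : Gal(K/F) := AlgEquiv.ofBijective χ (Finite.injective_iff_bijective.1 χ.toRingHom.injective)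
  have hpow : ∀ a (j : ℕ), ad (a ^ j) = ad a ^ j := fun a j => by
    induction j with
    | zero => rw [pow_zero, pow_zero, had_one]
    | succ j ih => rw [pow_succ, pow_succ, had_mul, ih]
  have h2 : χ' ^ 2 = 1 := AlgEquiv.ext fun a => by
    rw [pow_two, AlgEquiv.mul_apply]
    show ad (ad a ^ q ^ 5) ^ q ^ 5 = a
    rw [hpow, had_ad, D.sqK.pow_pow]
  have h1 : χ' = 1 := by
    have e1 := orderOf_dvd_iff_pow_eq_one.2 h2
    have e2 : orderOf χ' ∣ 5 := (orderOf_dvd_natCard χ').trans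
      (by rw [IsGalois.card_aut_eq_finrank, T.hfr])
    rw [← orderOf_eq_one_iff]
    exact Nat.eq_one_of_dvd_coprimes (by norm_num) e1 e2
  have hadQ : ∀ a, ad a = a ^ q ^ 5 := fun a => by
    have e3 : ad a ^ q ^ 5 = a := congrArg (fun f : Gal(K/F) => f a) h1
    calc ad a = (ad a ^ q ^ 5) ^ q ^ 5 := (D.sqK.pow_pow _).symm
      _ = a ^ q ^ 5 := by rw [e3]
  constructor
  · intro h
    refine huniq fun u v => ?_
    rw [pow_succ, ← hadQ, map_mul, ← Matrix.mulVec_mulVec, ← had, h, map_one, Matrix.one_mulVec]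
  · intro h u v
    rw [had, Matrix.mulVec_mulVec, ← map_mul, hadQ, ← pow_succ, h, map_one, Matrix.one_mulVec]

theorem det_eq (k : K) : algebraMap F K (ψ k).det = k ^ (q ^ 8 + q ^ 6 + q ^ 4 + q ^ 2 + 1) := by
  haveI := T.finK
  haveI := T.fdim
  let Ev : K →ₗ[F] (Fin 5 → F) :=
    { toFun := fun x => ψ x *ᵥ Pi.single 0 1
      map_add' := fun a b => by rw [map_add, Matrix.add_mulVec]
      map_smul' := fun a b => by rw [map_smul, Matrix.smul_mulVec, RingHom.id_apply] }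
  have he0 : (Pi.single 0 1 : Fin 5 → F) ≠ 0 := fun h => by simpa using congrFun h 0
  let E : K ≃ₗ[F] (Fin 5 → F) := LinearMap.linearEquivOfInjective Ev
    ((injective_iff_map_eq_zero Ev).2 fun x hx => T.apply_eq_zero he0 hx)
    (by rw [T.hfr, Module.finrank_fin_fun])
  have hlin : Matrix.toLin' (ψ k) =
      (E : K →ₗ[F] (Fin 5 → F)) ∘ₗ LinearMap.mulLeft F k ∘ₗ (E.symm : (Fin 5 → F) →ₗ[F] K) := by
    refine LinearMap.ext fun v => ?_
    obtain ⟨x, rfl⟩ := E.surjective v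
    simp only [LinearMap.comp_apply, LinearEquiv.coe_coe, LinearEquiv.symm_apply_apply,
      LinearMap.mulLeft_apply, Matrix.toLin'_apply]
    change ψ k *ᵥ (ψ x *ᵥ _) = ψ (k * x) *ᵥ _
    rw [Matrix.mulVec_mulVec, map_mul]
  have h1 := congrArg LinearMap.det hlin
  rw [LinearMap.det_toLin', LinearMap.det_conj] at h1
  haveI : Fintype K := Fintype.ofFinite K
  have h2 := FiniteField.algebraMap_norm_eq_pow_sum F K k
  rw [T.hfr, Nat.card_eq_fintype_card, T.hF] at h2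
  rw [h1, show LinearMap.det (LinearMap.mulLeft F k) = Algebra.norm F k from (Algebra.norm_apply F k).symm, h2]
  congr 1
  simp [Finset.sum_range_succ]
  ring

/-- Elements of the special unitary group inside the field. -/
def torus (_T : Tor q K ψ K₀) : Subgroup (GL (Fin 5) F) where
  carrier := {g | g ∈ Cfsg.GU 5 F q ⊓ specialLinear (Fin 5) F ∧ (g : Matrix (Fin 5) (Fin 5) F) ∈ K₀}
  one_mem' := ⟨one_mem _, one_mem K₀⟩
  mul_mem' := fun {a b} ha hb => ⟨mul_mem ha.1 hb.1, K₀.mul_mem ha.2 hb.2⟩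
  inv_mem' := fun {g} hg => ⟨inv_mem hg.1, by
    obtain ⟨n, hn⟩ := (isOfFinOrder_of_finite g).mem_powers_iff_mem_zpowers.2
      (Subgroup.inv_mem _ (Subgroup.mem_zpowers g))
    rw [← show g ^ n = g⁻¹ from hn, Units.val_pow_eq_pow_val]
    exact pow_mem hg.2 n⟩

theorem mem_torus {g : GL (Fin 5) F} : g ∈ T.torus ↔
    g ∈ Cfsg.GU 5 F q ⊓ specialLinear (Fin 5) F ∧ (g : Matrix (Fin 5) (Fin 5) F) ∈ K₀ := Iff.rfl

theorem mem_S_iff {g : GL (Fin 5) F} :
    g ∈ Cfsg.GU 5 F q ⊓ specialLinear (Fin 5) F ↔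
      (∀ u v, herm q ((g : Matrix (Fin 5) (Fin 5) F) *ᵥ u) ((g : Matrix (Fin 5) (Fin 5) F) *ᵥ v) = herm q u v) ∧
      (g : Matrix (Fin 5) (Fin 5) F).det = 1 := by
  constructor
  · rintro ⟨h1, h2⟩
    exact ⟨fun u v => h1 u v, GeoClasses.mem_specialLinear_iff.1 h2⟩
  · rintro ⟨h1, h2⟩
    exact ⟨fun u v => h1 u v, GeoClasses.mem_specialLinear_iff.2 h2⟩

theorem pow_of_mem {g : GL (Fin 5) F} {k : K} (hg : g ∈ T.torus)
    (hk : ψ k = (g : Matrix (Fin 5) (Fin 5) F)) :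
    k ^ (q ^ 5 + 1) = 1 ∧ k ^ (q ^ 8 + q ^ 6 + q ^ 4 + q ^ 2 + 1) = 1 := by
  obtain ⟨h1, h2⟩ := T.mem_S_iff.1 hg.1
  rw [← hk] at h1 h2
  exact ⟨(T.unitary_iff k).1 h1, by rw [← T.det_eq, h2, map_one]⟩

theorem exists_of_pow {k : K} (h1 : k ^ (q ^ 5 + 1) = 1)
    (h2 : k ^ (q ^ 8 + q ^ 6 + q ^ 4 + q ^ 2 + 1) = 1) :
    ∃ g ∈ T.torus, ψ k = (g : Matrix (Fin 5) (Fin 5) F) := by
  have hk0 : k ≠ 0 := fun h => by
    rw [h, zero_pow (Nat.succ_ne_zero _)] at h1; exact zero_ne_one h1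
  let x : GL (Fin 5) F := ⟨ψ k, ψ k⁻¹, by rw [← map_mul, mul_inv_cancel₀ hk0, map_one],
    by rw [← map_mul, inv_mul_cancel₀ hk0, map_one]⟩
  refine ⟨x, ⟨T.mem_S_iff.2 ⟨(T.unitary_iff k).2 h1, (algebraMap F K).injective ?_⟩, T.mem k⟩, rfl⟩
  rw [show (x : Matrix (Fin 5) (Fin 5) F) = ψ k from rfl, T.det_eq, h2, map_one]

theorem card_K : Nat.card K = q ^ 10 := by
  haveI := T.fdim
  haveI := T.finK
  rw [Module.natCard_eq_pow_finrank (K := F), Nat.card_eq_fintype_card, T.hF, T.hfr, ← pow_mul]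

theorem card_roots {d : ℕ} (hd : d ∣ q ^ 10 - 1) : Nat.card {k : K // k ^ d = 1} = d := by
  haveI := T.finK
  have h10 : 2 ≤ q ^ 10 := le_trans T.sq.one_lt (Nat.le_self_pow (by norm_num) q)
  have hdne : d ≠ 0 := fun h => by rw [h, zero_dvd_iff] at hd; omega
  let e : (powMonoidHom d : Kˣ →* Kˣ).ker → {k : K // k ^ d = 1} := fun u =>
    ⟨u.1.1, by
      have := congrArg Units.val (MonoidHom.mem_ker.1 u.2)
      simpa using this⟩
  have he : Function.Bijective e := by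
    refine ⟨fun a b h => Subtype.ext (Units.ext (congrArg (fun z => z.1) h)), fun k => ?_⟩
    have hk0 : (k.1 : K) ≠ 0 := fun h => by
      have := k.2
      rw [h, zero_pow hdne] at this
      exact zero_ne_one this
    exact ⟨⟨Units.mk0 k.1 hk0, MonoidHom.mem_ker.2 (Units.ext (by simpa using k.2))⟩, rfl⟩
  rw [← Nat.card_eq_of_bijective e he, IsCyclic.card_powMonoidHom_ker, Nat.card_units, T.card_K,
    Nat.gcd_eq_right hd]

end Tor

/-- The order of the torus. -/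
def m0 (q : ℕ) : ℕ := q ^ 4 - q ^ 3 + q ^ 2 - q + 1

theorem m0_cast (q : ℕ) (hq : 1 ≤ q) :
    (m0 q : ℤ) = (q : ℤ) ^ 4 - q ^ 3 + q ^ 2 - q + 1 := by
  have a1 : q ^ 3 ≤ q ^ 4 := Nat.pow_le_pow_right hq (by norm_num)
  have a2 : q ≤ q ^ 2 := Nat.le_self_pow (by norm_num) q
  have a3 : q ≤ q ^ 4 - q ^ 3 + q ^ 2 := le_trans a2 (Nat.le_add_left _ _)
  rw [m0]
  push_cast [Nat.cast_sub a3, Nat.cast_sub a1]
  ring

theorem m0_mul (q : ℕ) (hq : 1 ≤ q) : (q + 1) * m0 q = q ^ 5 + 1 := by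
  zify
  rw [m0_cast q hq]
  ring

theorem m0_mul' (q : ℕ) (hq : 1 ≤ q) :
    m0 q * (q ^ 4 + q ^ 3 + q ^ 2 + q + 1) = q ^ 8 + q ^ 6 + q ^ 4 + q ^ 2 + 1 := by
  zify
  rw [m0_cast q hq]
  ring

theorem gcd_exponents (q : ℕ) (hq : 1 ≤ q) :
    Nat.gcd (q ^ 5 + 1) (q ^ 8 + q ^ 6 + q ^ 4 + q ^ 2 + 1) = m0 q := by
  rw [← m0_mul q hq, ← m0_mul' q hq, mul_comm (q + 1), Nat.gcd_mul_left]
  have : Nat.Coprime (q + 1) (q ^ 4 + q ^ 3 + q ^ 2 + q + 1) := by
    rw [show q ^ 4 + q ^ 3 + q ^ 2 + q + 1 = 1 + (q ^ 3 + q) * (q + 1) by ring]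
    exact (Nat.coprime_add_mul_right_right _ _ _).2 (Nat.coprime_one_right _)
  rw [this.gcd_eq_one, mul_one]

theorem gcd_scalar (q : ℕ) (hq : 2 ≤ q) : Nat.gcd (m0 q) (q ^ 2 - 1) = Nat.gcd 5 (q + 1) := by
  obtain ⟨r, rfl⟩ : ∃ r, q = r + 1 := ⟨q - 1, by omega⟩
  have e1 : (r + 1) ^ 2 - 1 = r * (r + 2) := by
    rw [show (r + 1) ^ 2 = r * (r + 2) + 1 by ring, Nat.add_sub_cancel]
  have hm : m0 (r + 1) = (r ^ 3 + 3 * r ^ 2 + 4 * r + 2) * r + 1 := by
    zify
    rw [m0_cast _ (by omega)]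
    push_cast
    ring
  have hco : Nat.Coprime r (m0 (r + 1)) := by
    rw [hm, add_comm]
    exact (Nat.coprime_add_mul_right_right _ _ _).2 (Nat.coprime_one_right _)
  rw [e1, Nat.Coprime.gcd_mul_left_cancel_right (r + 2) hco]
  have h5 : m0 (r + 1) + (r + 2) * (2 * (r + 1) ^ 2 + 4) = 5 + (r + 2) * ((r + 1) ^ 3 + 3 * (r + 1)) := by
    zify
    rw [m0_cast _ (by omega)]
    push_cast
    ring
  rw [show r + 1 + 1 = r + 2 from rfl, ← Nat.gcd_add_mul_left_left (r + 2) 5 ((r + 1) ^ 3 + 3 * (r + 1)),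
    ← h5, Nat.gcd_add_mul_left_left]

namespace Tor

variable {K : Type*} [Field K] [Algebra F K] {ψ : K →ₐ[F] Matrix (Fin 5) (Fin 5) F}
  {K₀ : Subalgebra F (Matrix (Fin 5) (Fin 5) F)} (T : Tor q K ψ K₀)

include T

theorem mem_torus_iff {g : GL (Fin 5) F} :
    g ∈ T.torus ↔ ∃ k : K, k ^ m0 q = 1 ∧ ψ k = (g : Matrix (Fin 5) (Fin 5) F) := by
  constructor
  · intro hg
    obtain ⟨k, hk⟩ := (T.hψ _).1 hg.2
    refine ⟨k, ?_, hk⟩
    rw [← gcd_exponents q T.sq.one_lt.le, pow_gcd_eq_one]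
    exact T.pow_of_mem hg hk
  · rintro ⟨k, hk1, hk⟩
    rw [← gcd_exponents q T.sq.one_lt.le, pow_gcd_eq_one] at hk1
    obtain ⟨x, hx, hxk⟩ := T.exists_of_pow hk1.1 hk1.2
    rwa [show g = x from Units.ext (hk.symm.trans hxk)]

theorem m0_dvd : m0 q ∣ q ^ 10 - 1 := by
  refine Dvd.intro ((q + 1) * (q ^ 5 - 1)) ?_
  rw [← mul_assoc, mul_comm (m0 q), m0_mul q T.sq.one_lt.le,
    show q ^ 10 = (q ^ 5) ^ 2 by rw [← pow_mul], ← Nat.sq_sub_sq, one_pow]

/-- The scalar torus elements. -/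
theorem scalar_iff {k : K} (hk : k ^ m0 q = 1) :
    k ∈ (⊥ : Subalgebra F K) ↔ k ^ Nat.gcd 5 (q + 1) = 1 := by
  haveI := T.finK
  have hq := T.sq.one_lt
  have hk0 : k ≠ 0 := fun h => by
    rw [h, zero_pow (by unfold m0; omega)] at hk; exact zero_ne_one hk
  rw [← gcd_scalar q hq, pow_gcd_eq_one, and_iff_right hk]
  constructor
  · intro h
    obtain ⟨a, rfl⟩ := Algebra.mem_bot.1 h
    have ha : a ≠ 0 := fun h => hk0 (by rw [h, map_zero])
    rw [← map_pow, ← T.hF, FiniteField.pow_card_sub_one_eq_one _ ha, map_one]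
  · intro h
    by_contra hne
    have h21 : q ^ 2 - 1 ∣ q ^ 10 - 1 := Nat.pow_sub_one_dvd_pow_sub_one q (by norm_num)
    have hinj : Function.Injective (fun o : Option Fˣ =>
        (o.elim ⟨k, h⟩ fun c => ⟨algebraMap F K c.1, by
          rw [← map_pow, ← T.hF, FiniteField.pow_card_sub_one_eq_one _ c.ne_zero, map_one]⟩ :
          {x : K // x ^ (q ^ 2 - 1) = 1})) := by
      rintro (_ | a) (_ | b) he
      · rfl
      · exact absurd (Algebra.mem_bot.2 ⟨b.1, (congrArg Subtype.val he).symm⟩) hne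
      · exact absurd (Algebra.mem_bot.2 ⟨a.1, congrArg Subtype.val he⟩) hne
      · exact congrArg some (Units.ext ((algebraMap F K).injective (congrArg Subtype.val he)))
    have := Nat.card_le_card_of_injective _ hinj
    rw [T.card_roots h21, Finite.card_option, Nat.card_units, Nat.card_eq_fintype_card, T.hF] at this
    omega

theorem card_torus : Nat.card T.torus = m0 q := by
  haveI := T.finK
  rw [← T.card_roots T.m0_dvd]
  choose k hk1 hk2 using fun g : T.torus => (T.mem_torus_iff (g := g.1)).1 g.2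
  refine Nat.card_eq_of_bijective (fun g => ⟨k g, hk1 g⟩) ⟨fun a b h => ?_, fun x => ?_⟩
  · have : k a = k b := congrArg Subtype.val h
    exact Subtype.ext (Units.ext (by rw [← hk2, ← hk2, this]))
  · obtain ⟨g, -, hg⟩ : ∃ g : GL (Fin 5) F, g ∈ T.torus ∧ ψ x.1 = (g : Matrix (Fin 5) (Fin 5) F) := by
      have h := pow_gcd_eq_one.1
        ((congrArg (x.1 ^ ·) (gcd_exponents q T.sq.one_lt.le)).trans x.2)
      exact T.exists_of_pow h.1 h.2
    have hmem : g ∈ T.torus := (T.mem_torus_iff).2 ⟨x.1, x.2, hg⟩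
    exact ⟨⟨g, hmem⟩, Subtype.ext (T.inj ((hk2 ⟨g, hmem⟩).trans hg.symm))⟩

theorem isCyclic_torus : IsCyclic T.torus := by
  haveI := T.finK
  choose k hk1 hk2 using fun g : T.torus => (T.mem_torus_iff (g := g.1)).1 g.2
  let f : T.torus →* K :=
    { toFun := k
      map_one' := T.inj (by rw [hk2, map_one]; rfl)
      map_mul' := fun a b => T.inj (by rw [map_mul, hk2, hk2, hk2]; rfl) }
  exact isCyclic_of_subgroup_isDomain f fun a b h =>
    Subtype.ext (Units.ext (by rw [← hk2, ← hk2]; exact congrArg ψ h))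

end Tor

end Cfsg.Agent.MaxSub.SingerSU5
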